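import Mathlib
import Cfsg.Agent.SLE.Root

/-! Doubling of the root groups, part 1: involutions translating `t` along a root group. -/

set_option autoImplicit false
set_option linter.unusedSectionVars false

namespace Cfsg.Agent.SLE

open Cfsg.Lie Cfsg.Agent.Chev Subgroup

variable {D : ChevalleyDatum} {T : RootTable D}
variable {F : Type*} [Field F] {G : Type*} [Group G]

theorem rp {a b e : G} (h : a * b = e) : a * b = e ∧ ∀ z, a * (b * z) = e * z :=
  ⟨h, fun z => by rw [← mul_assoc, h]⟩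

theorem eq_one_of_odd {o z : G} (ho : Odd (orderOf o)) (hz : z * z = 1) (e : o * o = z) :
    o = 1 := by
  have h1 : o ^ 2 ^ 2 = 1 := by
    rw [← hz, ← e, show 2 ^ 2 = 2 + 2 from rfl, pow_add, sq]
  have h2 := orderOf_dvd_of_pow_eq_one h1
  rw [← orderOf_eq_one_iff]
  exact Nat.Coprime.eq_one_of_dvd ((Nat.coprime_two_right.2 ho).pow_right 2) h2

theorem eq_of_odd {g z o : G} (hg : Odd (orderOf g)) (ho : Odd (orderOf o)) (hz : z * z = 1)
    (hc : Commute z o) (e : g = z * o) : g = o := by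
  have h1 : g ^ (orderOf g * orderOf o) = 1 := by rw [pow_mul, pow_orderOf_eq_one, one_pow]
  obtain ⟨m, hm⟩ := hg.mul ho
  have h2 : o ^ (orderOf g * orderOf o) = 1 := by rw [pow_mul', pow_orderOf_eq_one, one_pow]
  rw [e, hc.mul_pow, ← e, h2, hm, pow_succ, pow_mul, sq, hz] at h1
  simp only [one_pow, one_mul, mul_one] at h1
  rw [e, h1, one_mul]

/-- `g` centralizes `M r` and translates `t` by `x r s` -/
structure Bt (x : ℕ → F → G) (t : G) (M : ℕ → Subgroup G) (r : ℕ) (g : G) (s : F) : Prop where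
  cM : ∀ m ∈ M r, Commute g m
  act : g * t * g⁻¹ = t * x r s

/-- ... and centralizes `O` -/
structure Bo (x : ℕ → F → G) (t : G) (M : ℕ → Subgroup G) (O : Subgroup G) (r : ℕ) (g : G)
    (s : F) : Prop extends Bt x t M r g s where
  cO : ∀ o ∈ O, Commute g o

/-- ... and has its square in the root group -/
structure Pt (x : ℕ → F → G) (t : G) (M : ℕ → Subgroup G) (O : Subgroup G) (r : ℕ) (g : G)
    (s j : F) : Prop extends Bo x t M O r g s where
  sq : g * g = x r j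

namespace Dbl

variable [CharP F 2] {x : ℕ → F → G} {t : G} {M : ℕ → Subgroup G} {N : ℕ → ℕ → Subgroup G}
  {O : Subgroup G} (h : Dbl T x t M N O)
include h

theorem xM' {r s : ℕ} (hs : s < 2 * T.N) (hr : r < 2 * T.N) (e : 0 ≤ D.pairing r s) (a : F) :
    x s a ∈ M r := h.xM r hr (mem_XS (And.intro hs e) a)

theorem xm {r : ℕ} (hr : r < 2 * T.N) (a : F) : x r a ∈ M r :=
  h.xM' hr hr (by rw [T.pairing_self r hr]; omega) a

theorem tx {r : ℕ} (hr : r < 2 * T.N) (a : F) : Commute t (x r a) := h.Mt r hr _ (h.xm hr a)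

theorem ox {r : ℕ} (hr : r < 2 * T.N) (a : F) {o : G} (ho : o ∈ O) : Commute o (x r a) :=
  h.OM r hr _ (h.xm hr a) o ho

theorem xsq {r : ℕ} (hr : r < 2 * T.N) (a : F) : x r a * x r a = 1 :=
  h.st.toIsSt0.x_one_sq (T.lt_iff.2 hr) a

theorem xadd {r : ℕ} (hr : r < 2 * T.N) (a b : F) : x r a * x r b = x r (a + b) :=
  h.st.add r (T.lt_iff.2 hr) a b

theorem x0 {r : ℕ} (hr : r < 2 * T.N) : x r 0 = 1 := h.st.toIsSt0.x_zero (T.lt_iff.2 hr)

theorem xinv {r : ℕ} (hr : r < 2 * T.N) (a : F) : (x r a)⁻¹ = x r a :=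
  inv_eq_of_mul_eq_one_right (h.xsq hr a)

theorem xinj {r : ℕ} (hr : r < 2 * T.N) {a b : F} (e : x r a = x r b) : a = b :=
  h.nd.x_inj h.st.toIsSt0 hr e

theorem tinv : t⁻¹ = t := inv_eq_of_mul_eq_one_right h.tt

theorem xx {r s : ℕ} (hr : r < 2 * T.N) (hs : s < 2 * T.N) (e : 0 ≤ D.pairing r s) (a b : F) :
    Commute (x r a) (x s b) := h.sl.com h.st.toIsSt0 hr hs e a b

theorem ind {c k : ℕ} (hc : c < 2 * T.N) (hk : k < 2 * T.N) (e : D.pairing c k = 1) {a b : F}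
    (e' : x c a = x k b) : a = 0 ∧ b = 0 :=
  indep h.sl h.nd hc hk (by rintro rfl; rw [T.pairing_self k hk] at e; omega)
    (h.sl.ne_neg_of hc (by omega)) e'

theorem kc {c d k : ℕ} (e : Sm T c d k) (a : F) : x k a ∈ M c :=
  h.xM' e.hk e.hr (by rw [h.sl.sm_rk e]; omega) a

theorem ck {c d k : ℕ} (e : Sm T c d k) (a : F) : x c a ∈ M k :=
  h.xM' e.hr e.hk (by rw [h.sl.sm_kr e]; omega) a

theorem dk {c d k : ℕ} (e : Sm T c d k) (a : F) : x d a ∈ M k := h.ck e.symm a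

theorem xconj {c d k : ℕ} (e : Sm T c d k) (a b : F) :
    x d b * x c a * x d b = x c a * x k (a * b) := h.sl.conj h.st.toIsSt0 e a b

section

variable {r : ℕ} (hr : r < 2 * T.N) {g g' : G} {s s' j j' : F}
include hr

theorem bt_inv (b : Bt x t M r g s) : Bt x t M r g⁻¹ s := by
  refine ⟨fun m hm => (b.cM m hm).inv_left, ?_⟩
  have h1 := (b.cM _ (h.xm hr s)).inv_left
  calc g⁻¹ * t * g⁻¹⁻¹ = g⁻¹ * (t * x r s) * (x r s * g) := by
        simp only [mul_assoc, rp (h.xsq hr s), one_mul, inv_inv]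
    _ = t * (g⁻¹ * x r s) * g := by rw [← b.act]; group
    _ = t * x r s := by rw [h1.eq]; group

theorem bt_mul (b : Bt x t M r g s) (b' : Bt x t M r g' s') : Bt x t M r (g * g') (s + s') := by
  refine ⟨fun m hm => (b.cM m hm).mul_left (b'.cM m hm), ?_⟩
  calc g * g' * t * (g * g')⁻¹ = g * (g' * t * g'⁻¹) * g⁻¹ := by group
    _ = g * t * g⁻¹ * (g * x r s') * g⁻¹ := by rw [b'.act]; group
    _ = t * x r (s + s') := by rw [b.act, (b.cM _ (h.xm hr s')).eq, ← h.xadd hr]; group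

theorem bt_of (h1 : ∀ m ∈ M r, Commute g m) (h2 : Commute t g) : Bt x t M r g 0 :=
  ⟨h1, by rw [h.x0 hr, ← h2.eq]; group⟩

theorem bt_o {o : G} (ho : o ∈ O) : Bt x t M r o 0 :=
  h.bt_of hr (fun m hm => h.OM r hr m hm o ho) (h.Ot o ho)

theorem bo_x (a : F) : Bo x t M O r (x r a) 0 :=
  ⟨h.bt_of hr (fun m hm => h.Mx r hr m hm a) (h.tx hr a), fun _ ho => (h.ox hr a ho).symm⟩

theorem bo_t : Bo x t M O r t 0 :=
  ⟨h.bt_of hr (h.Mt r hr) (Commute.refl t), fun o ho => h.Ot o ho⟩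

theorem bo_mul (b : Bo x t M O r g s) (b' : Bo x t M O r g' s') :
    Bo x t M O r (g * g') (s + s') :=
  ⟨h.bt_mul hr b.toBt b'.toBt, fun o ho => (b.cO o ho).mul_left (b'.cO o ho)⟩

theorem bt_comm (b : Bt x t M r g 0) : Commute t g := by
  have := b.act
  rw [h.x0 hr, mul_one, mul_inv_eq_iff_eq_mul] at this
  exact this.symm

theorem bt_uniq (b : Bt x t M r g s) (b' : Bt x t M r g' s) :
    ∃ a, ∃ o ∈ O, g' = g * x r a * o ∨ g' = g * x r a * t * o := by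
  have h1 := h.bt_mul hr (h.bt_inv hr b) b'
  rw [CharTwo.add_self_eq_zero] at h1
  obtain ⟨a, o, ho, e | e⟩ := h.rig1 r hr _ (h.bt_comm hr h1) h1.cM
  · exact ⟨a, o, ho, Or.inl (by rw [mul_assoc, ← e]; group)⟩
  · refine ⟨a, o, ho, Or.inr ?_⟩
    rw [mul_assoc, mul_assoc, (h.Ot o ho).eq, ← mul_assoc (x r a), ← e]; group

theorem bt_norm (b : Bt x t M r g s) {o : G} (ho : o ∈ O) : g * o * g⁻¹ ∈ O := by
  have h1 := h.bt_mul hr (h.bt_mul hr b (h.bt_o hr ho)) (h.bt_inv hr b)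
  rw [add_zero, CharTwo.add_self_eq_zero] at h1
  have h2 : Odd (orderOf (g * o * g⁻¹)) := by
    rw [← MulAut.conj_apply, MulEquiv.orderOf_eq]; exact h.odd o ho
  obtain ⟨a, o', ho', e | e⟩ := h.rig1 r hr _ (h.bt_comm hr h1) h1.cM
  · rwa [eq_of_odd h2 (h.odd o' ho') (h.xsq hr a) (h.ox hr a ho').symm e]
  · rw [mul_assoc (x r a), ← (h.Ot o' ho').eq, ← mul_assoc] at e
    rwa [eq_of_odd h2 (h.odd o' ho') (by
      simp only [mul_assoc, rp (h.tx hr a).eq, rp (h.xsq hr a), h.tt, one_mul])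
      ((h.ox hr a ho').symm.mul_left (h.Ot o' ho')) e]

theorem bt_ts (b : Bt x t M r g s) : t * g = g * (t * x r s) := by
  rw [← (h.bt_inv hr b).act]; group

theorem pt_x (b : Pt x t M O r g s j) (a : F) : Pt x t M O r (g * x r a) s j := by
  refine ⟨by simpa using h.bo_mul hr b.toBo (h.bo_x hr a), ?_⟩
  simp only [mul_assoc, rp (b.cM _ (h.xm hr a)).symm.eq, h.xsq hr a, mul_one, b.sq]

theorem pt_t (b : Pt x t M O r g s j) : Pt x t M O r (g * t) s (j + s) := by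
  refine ⟨by simpa using h.bo_mul hr b.toBo (h.bo_t hr), ?_⟩
  simp only [mul_assoc, rp (h.bt_ts hr b.toBt), rp b.sq, rp (h.tx hr s).symm.eq, rp h.tt, one_mul,
    h.xadd hr]

theorem bo_dec (b : Pt x t M O r g s j) (b' : Bt x t M r g' s) :
    ∃ a, ∃ o ∈ O, g' = g * x r a * o ∧ Pt x t M O r (g * x r a) s j ∨
      g' = g * x r a * t * o ∧ Pt x t M O r (g * x r a * t) s (j + s) := by
  obtain ⟨a, o, ho, e | e⟩ := h.bt_uniq hr b.toBt b'
  · exact ⟨a, o, ho, Or.inl ⟨e, h.pt_x hr b a⟩⟩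
  · exact ⟨a, o, ho, Or.inr ⟨e, h.pt_t hr (h.pt_x hr b a)⟩⟩

theorem pt_kill {o : G} (ho : o ∈ O) (b : Pt x t M O r g s j) (b' : Pt x t M O r (g * o) s j') :
    o = 1 ∧ j' = j := by
  have h1 := b'.sq
  simp only [mul_assoc, rp (b.cO o ho).symm.eq, rp b.sq] at h1
  have h2 : o = 1 := eq_one_of_odd (h.odd o ho) (h.xsq hr (j + j')) (by
    rw [← h.xadd hr, ← h1, ← mul_assoc, h.xsq hr, one_mul])
  rw [h2, mul_one, mul_one] at h1
  exact ⟨h2, h.xinj hr h1.symm⟩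

theorem pt_uniq (b : Pt x t M O r g s j) (b' : Pt x t M O r g' s j') :
    ∃ a, g' = g * x r a ∧ j' = j ∨ g' = g * x r a * t ∧ j' = j + s := by
  obtain ⟨a, o, ho, ⟨e, h1⟩ | ⟨e, h1⟩⟩ := h.bo_dec hr b b'.toBt
  · obtain ⟨rfl, h2⟩ := h.pt_kill hr ho h1 (e ▸ b')
    exact ⟨a, Or.inl ⟨by rw [e, mul_one], h2⟩⟩
  · obtain ⟨rfl, h2⟩ := h.pt_kill hr ho h1 (e ▸ b')
    exact ⟨a, Or.inr ⟨by rw [e, mul_one], h2⟩⟩

end

section

variable {c d k : ℕ} (e : Sm T c d k) {y g : G} {s j : F}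
include e

theorem w_O (b : Bt x t M c y s) {o : G} (ho : o ∈ O) : Commute (y⁻¹ * x d 1 * y * x d 1) o := by
  refine Commute.mul_left ?_ (h.ox e.hs 1 ho).symm
  have h1 := (h.ox e.hs 1 (h.bt_norm e.hr b ho)).eq
  calc y⁻¹ * x d 1 * y * o = y⁻¹ * (x d 1 * (y * o * y⁻¹)) * y := by group
    _ = o * (y⁻¹ * x d 1 * y) := by rw [← h1]; group

theorem w_dec (b : Bt x t M c y s) (b' : Bt x t M k g s) : ∃ a a', ∃ o ∈ O,
    y⁻¹ * x d 1 * y * x d 1 = g * x k a' * x c a * o ∨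
      y⁻¹ * x d 1 * y * x d 1 = g * x k a' * t * x c a * o := by
  have u2 := h.xsq e.hs (1 : F)
  have h1 : ∀ m ∈ N c k, Commute (y⁻¹ * x d 1 * y * x d 1) m := fun m hm => by
    have h2 := (b.cM _ (h.NM c d k e (h.lin c d k e m hm)).1).eq
    have h3 := (b.cM _ (h.NM c d k e hm).1).inv_left.eq
    calc y⁻¹ * x d 1 * y * x d 1 * m = y⁻¹ * x d 1 * (y * (x d 1 * m * x d 1)) * x d 1 := by
          simp only [mul_assoc, u2, mul_one]
      _ = (y⁻¹ * m) * x d 1 * y * x d 1 := by rw [h2]; simp only [mul_assoc, rp u2, one_mul]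
      _ = m * (y⁻¹ * x d 1 * y * x d 1) := by rw [h3]; group
  have h2 : Commute t (g⁻¹ * (y⁻¹ * x d 1 * y * x d 1)) := by
    have h3 := h.bt_ts e.hk (h.bt_inv e.hk b')
    have h4 := h.bt_ts e.hr (h.bt_inv e.hr b)
    have h5 := h.bt_ts e.hr b
    have h6 : x c s * x d 1 = x d 1 * (x c s * x k s) := by
      have := h.xconj e s 1
      rw [mul_one] at this
      rw [← this]; simp only [mul_assoc, rp u2, one_mul]
    have h7 := (b.cM _ (h.kc e s))
    have h8 := (b.cM _ (h.xm e.hr s))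
    have h9 := h.xx e.hk e.hs (by rw [h.sl.sm_ks e]; omega) s 1
    have h10 := h.xx e.hk e.hr (by rw [h.sl.sm_kr e]; omega) s s
    show _ = _
    simp only [mul_assoc, rp h3, rp h4, rp h5, rp h6, rp (h.tx e.hs 1).eq, rp h7.inv_left.symm.eq,
      rp h7.symm.eq, rp h8.symm.eq, rp h9.eq, rp h10.eq, rp (h.xsq e.hk s), rp (h.xsq e.hr s),
      mul_one]
  have h3 := (h.xx e.hk e.hr (by rw [h.sl.sm_kr e]; omega))
  obtain ⟨a, a', o, ho, e1 | e1⟩ := h.rig2 c d k e _ h2 fun m hm =>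
    (b'.cM m (h.NM c d k e hm).2).inv_left.mul_left (h1 m hm)
  · refine ⟨a, a', o, ho, Or.inl ?_⟩
    rw [inv_mul_eq_iff_eq_mul.1 e1, ← (h3 a' a).eq]; group
  · refine ⟨a, a', o, ho, Or.inr ?_⟩
    rw [inv_mul_eq_iff_eq_mul.1 e1, ← (h3 a' a).eq]
    simp only [mul_assoc, rp (h.tx e.hr a).eq, (h.Ot o ho).eq]

end

theorem exists_bo {k : ℕ} (hk : k < 2 * T.N) (s : F) : ∃ g, Bo x t M O k g s := by
  obtain ⟨c, d, e⟩ := h.sl.exists_dec hk
  obtain ⟨y, h1, h2⟩ := h.trl c e.hr s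
  obtain ⟨g, h3, h4⟩ := h.trl k hk s
  obtain ⟨a, a', o, ho, e1⟩ := h.w_dec e ⟨h1, h2⟩ ⟨h3, h4⟩
  refine ⟨g * o, by simpa using h.bt_mul hk ⟨h3, h4⟩ (h.bt_o hk ho), fun o' ho' => ?_⟩
  have h5 := h.w_O e ⟨h1, h2⟩ ho'
  have h6 := (h.ox e.hr a ho').symm
  have h7 := (h.ox hk a' ho').symm
  rcases e1 with e1 | e1
  · have := (h5.mul_left h6).mul_left h7
    rw [e1] at this
    simpa only [mul_assoc, rp (h.ox e.hr a ho).eq, rp (h.ox hk a' ho).eq, rp (h.xsq e.hr a),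
      rp (h.xsq hk a'), one_mul] using this
  · have := ((h5.mul_left h6).mul_left (h.Ot o' ho')).mul_left h7
    rw [e1] at this
    simpa only [mul_assoc, rp (h.ox e.hr a ho).eq, rp (h.ox hk a' ho).eq, rp (h.xsq e.hr a),
      rp (h.xsq hk a'), one_mul, rp (h.Ot o ho).symm.eq, rp h.tt] using this

theorem exists_pt {k : ℕ} (hk : k < 2 * T.N) (s : F) : ∃ g j, Pt x t M O k g s j := by
  obtain ⟨g, b⟩ := h.exists_bo hk s
  have h1 := h.bo_mul hk b b
  rw [CharTwo.add_self_eq_zero] at h1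
  obtain ⟨a, o, ho, e | e⟩ := h.rig1 k hk _ (h.bt_comm hk h1.toBt) h1.cM
  · obtain ⟨m, hm⟩ := h.odd o ho
    have h2 : o = x k a * (g * g) := by rw [e, ← mul_assoc, h.xsq hk, one_mul]
    refine ⟨g * o ^ m, a, ⟨by simpa using h.bt_mul hk b.toBt (h.bt_o hk (pow_mem ho m)),
      fun o' ho' => (b.cO o' ho').mul_left (Commute.pow_left ?_ m)⟩, ?_⟩
    · rw [h2]; exact (h.ox hk a ho').symm.mul_left (h1.cO o' ho')
    · calc g * o ^ m * (g * o ^ m) = g * g * (o ^ m * o ^ m) := by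
            simp only [mul_assoc, rp (b.cO _ (pow_mem ho m)).symm.eq]
        _ = x k a * o ^ (2 * m + 1) := by rw [e]; group
        _ = x k a := by rw [← hm, pow_orderOf_eq_one, mul_one]
  · have h2 : t = (x k a * o)⁻¹ * (g * g) := by rw [e]; group
    have h3 : Commute g t := by
      rw [h2]
      exact ((b.cM _ (h.xm hk a)).mul_right (b.cO o ho)).inv_right.mul_right
        ((Commute.refl g).mul_right (Commute.refl g))
    have h4 := b.act
    rw [h3.eq, mul_inv_cancel_right] at h4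
    exact ⟨1, 0, ⟨⟨fun m _ => Commute.one_left m, by rw [← h4]; group⟩,
      fun m _ => Commute.one_left m⟩, by rw [h.x0 hk, mul_one]⟩

theorem phi_pt {c d k : ℕ} (e : Sm T c d k) {y : G} {s : F} (b : Bt x t M c y s) :
    ∃ g j, Pt x t M O k g s j ∧ y⁻¹ * x d 1 * y * x d 1 = g * x c j := by
  obtain ⟨g0, j0, b0⟩ := h.exists_pt e.hk s
  have u2 := h.xsq e.hs (1 : F)
  have key : ∀ g j a, ∀ o ∈ O, Pt x t M O k g s j → y⁻¹ * x d 1 * y * x d 1 = g * x c a * o →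
      ∃ g j, Pt x t M O k g s j ∧ y⁻¹ * x d 1 * y * x d 1 = g * x c j := by
    intro g j a o ho b1 e1
    have h1 : x d 1 * (y⁻¹ * x d 1 * y * x d 1) * x d 1 * (y⁻¹ * x d 1 * y * x d 1) = 1 := by
      simp only [mul_assoc, rp u2, one_mul, mul_inv_cancel_left, inv_mul_cancel_left]
    have h2 := h.xconj e a 1
    rw [mul_one, mul_assoc] at h2
    have h3 : ∀ z, x d 1 * (x c a * (x d 1 * z)) = x c a * (x k a * z) := fun z => by
      rw [← mul_assoc (x c a), ← mul_assoc (x c a), ← h2]; group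
    rw [e1] at h1
    simp only [mul_assoc, rp (b1.cM _ (h.dk e 1)).symm.eq, rp (h.ox e.hs 1 ho).eq, h3,
      rp (b1.cO o ho).symm.eq, rp (h.ox e.hr a ho).eq, rp (b1.cM _ (h.ck e a)).symm.eq,
      rp (b1.cM _ (h.xm e.hk a)).symm.eq, rp b1.sq,
      rp (h.xx e.hr e.hk (by rw [h.sl.sm_rk e]; omega) a a).eq, rp (h.xsq e.hr a), one_mul,
      rp (h.xadd e.hk j a)] at h1
    have h4 : o = 1 := eq_one_of_odd (h.odd o ho) (h.xsq e.hk (j + a))
      (by rw [← h.xinv e.hk]; exact eq_inv_of_mul_eq_one_right h1)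
    rw [h4, mul_one, mul_one, ← h.x0 e.hk] at h1
    obtain rfl : a = j := by
      have := h.xinj e.hk h1
      rw [← CharTwo.sub_eq_add, sub_eq_zero] at this
      exact this.symm
    exact ⟨g, a, b1, by rw [e1, h4, mul_one]⟩
  obtain ⟨a, a', o, ho, e1 | e1⟩ := h.w_dec e b b0.toBt
  · exact key _ _ a o ho (h.pt_x e.hk b0 a') e1
  · exact key _ _ a o ho (h.pt_t e.hk (h.pt_x e.hk b0 a')) e1

end Dbl

end Cfsg.Agent.SLE
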