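import Mathlib
import Cfsg.Agent.SLE.Base

/-! Root data for Steps 0 and 1 in the types `E₆`, `E₇`, `E₈`. -/

set_option autoImplicit false

namespace Cfsg.Agent.SLE

open Cfsg.Lie Cfsg.Agent.Chev Subgroup

variable {D : ChevalleyDatum}

/-- `O₂` of the centralizer of the highest root group -/
def Qs {F : Type*} [Field F] {G : Type*} [Group G] (T : RootTable D) (x : ℕ → F → G) :
    Subgroup G := XS x {r | r < 2 * T.N ∧ 1 ≤ D.pairing (hi T) r}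

/-- The line `θ = hi T`, `b = θ - α`. Notation: `J = {δ ⊥ θ, b}`, `Γ = {γ ⊥ θ, <b,γ> = 1}`,
level `i` = `{s : <θ,s> = 1, <b,s> = i - 1}`. -/
structure RB (T : RootTable D) (b α : ℕ) : Prop where
  sm : Sm T b α (hi T)
  simple : ∃ i : Fin D.rank, α = D.simple i ∧ ∀ j, j ≠ i → D.pairing (hi T) (D.simple j) = 0
  perfH : ∀ k < 2 * T.N, 0 ≤ D.pairing (hi T) k →
    ∃ r s, Sm T r s k ∧ 0 ≤ D.pairing (hi T) r ∧ 0 ≤ D.pairing (hi T) s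
  perfN : ∀ k < 2 * T.N, 0 ≤ D.pairing b k → 0 ≤ D.pairing (hi T) k →
    ∃ r s, Sm T r s k ∧ (0 ≤ D.pairing b r ∧ 0 ≤ D.pairing (hi T) r) ∧
      0 ≤ D.pairing b s ∧ 0 ≤ D.pairing (hi T) s
  top : ∃ γ₀ < 2 * T.N, D.pairing (hi T) γ₀ = 0 ∧ D.pairing b γ₀ = 1 ∧
    (∀ δ, T.N ≤ δ → δ < 2 * T.N → D.pairing (hi T) δ = 0 → D.pairing b δ = 0 →
      0 ≤ D.pairing γ₀ δ) ∧
    ∀ γ < 2 * T.N, D.pairing (hi T) γ = 0 → D.pairing b γ = 1 → γ = γ₀ ∨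
      ∃ δ k, T.N ≤ δ ∧ D.pairing (hi T) δ = 0 ∧ D.pairing b δ = 0 ∧ Sm T γ δ k
  lev1 : ∀ s < 2 * T.N, D.pairing (hi T) s = 1 → D.pairing b s = 1 →
    ∃ δ k, D.pairing (hi T) δ = 0 ∧ D.pairing b δ = 0 ∧ Sm T s δ k
  lev2 : ∀ s < 2 * T.N, D.pairing (hi T) s = 1 → D.pairing b s = 1 →
    ∃ s' γ, D.pairing (hi T) γ = 0 ∧ D.pairing b γ = 1 ∧ Sm T s' γ s
  lev3 : ∀ δ < 2 * T.N, D.pairing (hi T) δ = 0 → D.pairing b δ = 0 →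
    ∃ s k, D.pairing (hi T) s = 1 ∧ D.pairing b s = 1 ∧ Sm T s δ k

/-- positive roots whose root groups centralize `∏_{b ∈ R} x_b(a)` -/
def P0 (T : RootTable D) (R : List ℕ) (r : ℕ) : Prop :=
  T.N ≤ r ∧ r < 2 * T.N ∧ ∀ b ∈ R, 0 ≤ D.pairing r b

/-- pairs of positive roots with `x_r(c) x_{r'}(c)` centralizing `∏_{b ∈ R} x_b(a)` -/
def Pr (T : RootTable D) (R : List ℕ) (r r' : ℕ) : Prop :=
  T.N ≤ r ∧ T.N ≤ r' ∧ ∃ b ∈ R, ∃ b' ∈ R, ∃ k, b ≠ b' ∧ Sm T r b k ∧ Sm T r' b' k ∧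
    (∀ c ∈ R, c ≠ b → 0 ≤ D.pairing r c) ∧ ∀ c ∈ R, c ≠ b' → 0 ≤ D.pairing r' c

/-- the grading defined by `R` -/
def deg (D : ChevalleyDatum) (R : List ℕ) (s : ℕ) : ℤ := (R.map fun b => D.pairing b s).sum

/-- Root data of a class of involutions `∏_{b ∈ R} x_b(1)` other than root elements. -/
structure CD (T : RootTable D) (R Ω : List ℕ) : Prop where
  orth : Orth D R
  pos : ∀ b ∈ R, T.N ≤ b
  hd : ∃ b ∈ R, D.pairing (hi T) b = 1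
  dom : ∀ i : Fin D.rank, 0 ≤ deg D R (D.simple i)
  top : ∀ s < 2 * T.N, deg D R s ≤ 3
  sim : ∀ i : Fin D.rank, P0 T R (D.simple i) ∨ ∃ r', Pr T R (D.simple i) r'
  sep : ∀ i j : Fin D.rank, i ≠ j →
    ∃ r, P0 T R r ∧ D.pairing r (D.simple i) ≠ D.pairing r (D.simple j)
  om : ∀ s ∈ Ω, T.N ≤ s ∧ s < 2 * T.N ∧ 2 ≤ deg D R s ∧ ∀ r, P0 T R r → 0 ≤ D.pairing s r
  kil : ∀ s, T.N ≤ s → s < 2 * T.N → s ∈ Ω ∨ ∃ r k, P0 T R r ∧ Sm T s r k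
  kil2 : ∃ b ∈ R, ∀ s ∈ Ω, s = b ∨ s = hi T ∨ ∃ r r' k, Pr T R r r' ∧ Sm T s r k ∧
    ∀ s' ∈ Ω, s' ≠ b → ¬ Sm T s' r' k ∧ ¬ Sm T s' r' s
  zu : ∃ r s, P0 T R r ∧ P0 T R s ∧ Sm T r s (hi T)
  mv : ∃ ρ k, (∀ b ∈ R, D.pairing ρ b = 0) ∧ Sm T (hi T) ρ k

end Cfsg.Agent.SLE
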