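import Mathlib
import Cfsg.Agent.SLE.Base

/-! A `π`-invariant filtration of `U`, one orbit of roots at a time. -/

set_option autoImplicit false
set_option linter.unusedSectionVars false

namespace Cfsg.Agent.SLE

open Cfsg.Lie Cfsg.Agent.Chev Subgroup

variable {D : ChevalleyDatum} {T : RootTable D}

theorem SL.sm_of_comb (H : SL T) {r s k : ℕ} (h1 : T.N ≤ r) (hr : r < 2 * T.N) (h2 : T.N ≤ s)
    (hs : s < 2 * T.N) (hk : k < 2 * T.N) {i j : ℕ} (hi : 0 < i) (hj : 0 < j)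
    (e : T.vec k = i • T.vec r + j • T.vec s) : Sm T r s k := by
  have v1 := T.val_pos h1 hr
  have v2 := T.val_pos h2 hs
  have hv : T.val (T.vec k) = i * T.val (T.vec r) + j * T.val (T.vec s) := by
    rw [e, map_add, map_nsmul, map_nsmul, nsmul_eq_mul, nsmul_eq_mul]
  have hi' : (1 : ℤ) ≤ i := by exact_mod_cast hi
  have hj' : (1 : ℤ) ≤ j := by exact_mod_cast hj
  have k1 : k ≠ r := by
    rintro rfl
    nlinarith
  have k2 : k ≠ s := by
    rintro rfl
    nlinarith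
  have hn : s ≠ D.neg r := by
    have := T.neg_lt_N h1 hr
    omega
  have p0 := H.neg_one_le hr hs hn
  have p1 := H.le_one r hr k hk k1
  have p2 := H.le_one s hs k hk k2
  have q (a : ℕ) : D.pairing a k = i * D.pairing a r + j * D.pairing a s := by
    rw [T.pairing_eq_corootHom a hk, T.pairing_eq_corootHom a hr, T.pairing_eq_corootHom a hs, e,
      map_add, map_nsmul, map_nsmul, nsmul_eq_mul, nsmul_eq_mul]
  rw [q, T.pairing_self r hr] at p1
  rw [q, T.pairing_self s hs, H.symm s hs r hr] at p2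
  have a1 : (i : ℤ) * 2 - j ≤ 1 := by nlinarith
  have a2 : (j : ℤ) * 2 - i ≤ 1 := by nlinarith
  have b1 : i = 1 := by omega
  have b2 : j = 1 := by omega
  subst b1 b2
  exact ⟨hr, hs, hk, by simpa using e⟩

/-- the set of the positive roots -/
def Pos (T : RootTable D) : Set ℕ := {r | T.N ≤ r ∧ r < 2 * T.N}

theorem nil_Pos (T : RootTable D) : T.Nil (Pos T) := by
  have h := T.nil_pos
  have e : {r | D.IsPosRoot r} = Pos T := Set.ext fun r => T.pos_iff r
  rwa [e] at h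

theorem Us_eq_Pos {F : Type*} [Field F] {G : Type*} [Group G] (T : RootTable D) (x : ℕ → F → G) :
    Us D x = XS x (Pos T) := T.Us_eq

theorem SL.closed_of_sm (H : SL T) {S : Set ℕ} (hS : S ⊆ Pos T)
    (h : ∀ r s k, Sm T r s k → r ∈ S → s ∈ S → k ∈ S) : T.Closed S :=
  fun r hr s hs k hk _ _ hi hj e =>
    h r s k (H.sm_of_comb (hS hr).1 (hS hr).2 (hS hs).1 (hS hs).2 hk hi hj e) hr hs

theorem SL.closed_pair (H : SL T) {r s : ℕ} (hr : r ∈ Pos T) (hs : s ∈ Pos T)
    (e : 0 ≤ D.pairing r s) : T.Closed {r, s} := by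
  refine H.closed_of_sm ?_ ?_
  · rintro a (rfl | rfl) <;> assumption
  · intro a b k h ha hb
    have h1 := H.sm_rs h
    have h2 := H.sm_sr h
    have h3 := T.pairing_self r hr.2
    have h4 := T.pairing_self s hs.2
    rcases ha with rfl | rfl <;> rcases hb with rfl | rfl <;> omega

/-- A `π`-invariant ideal of positive roots. -/
structure Idl (T : RootTable D) (π : ℕ → ℕ) (S : Set ℕ) : Prop where
  pos : S ⊆ Pos T
  inv : ∀ r ∈ S, π r ∈ S
  sum : ∀ r s k, Sm T r s k → r ∈ S → T.N ≤ s → k ∈ S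

/-- One step of the filtration. -/
structure Peel (T : RootTable D) (π : ℕ → ℕ) (S S' : Set ℕ) (r : ℕ) : Prop where
  big : Idl T π S
  small : Idl T π S'
  mem : r ∈ S
  eq : S' = S \ {r, π r}
  sum : ∀ a s k, Sm T a s k → a ∈ S → T.N ≤ s → k ∈ S'

variable {π : ℕ → ℕ}

theorem Sym.idl_Pos (h : Sym T π) : Idl T π (Pos T) :=
  ⟨le_rfl, fun r hr => ⟨(h.pos r hr.2).2 hr.1, h.lt r hr.2⟩,
    fun _ _ _ e hr hs => ⟨e.pos hr.1 hs, e.hk⟩⟩

theorem Idl.closed (H : SL T) {S : Set ℕ} (h : Idl T π S) : T.Closed S :=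
  H.closed_of_sm h.pos fun r s k e hr hs => h.sum r s k e hr (h.pos hs).1

theorem Idl.nil (H : SL T) {S : Set ℕ} (h : Idl T π S) : T.Nil S :=
  (nil_Pos T).mono h.pos (h.closed H)

theorem Idl.finite {S : Set ℕ} (h : Idl T π S) : S.Finite := (nil_Pos T).finite.subset h.pos

theorem Sym.exists_peel (h : Sym T π) {S : Set ℕ} (hS : Idl T π S) (hne : S.Nonempty) :
    ∃ r, Peel T π S (S \ {r, π r}) r := by
  obtain ⟨r, hr, hm⟩ := Set.exists_min_image S
    (fun r => T.val (T.vec r) + T.val (T.vec (π r))) hS.finite hne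
  have key : ∀ a s k, Sm T a s k → a ∈ S → T.N ≤ s → k ∈ S \ {r, π r} := by
    intro a s k e ha hs
    refine ⟨hS.sum a s k e ha hs, ?_⟩
    have e' := h.sum a s k e
    have v1 := T.val_pos hs e.hs
    have v2 := T.val_pos ((h.pos s e.hs).2 hs) e'.hs
    have w1 : T.val (T.vec k) = T.val (T.vec a) + T.val (T.vec s) := by rw [e.eq, map_add]
    have w2 : T.val (T.vec (π k)) = T.val (T.vec (π a)) + T.val (T.vec (π s)) := by
      rw [e'.eq, map_add]
    have w3 := hm a ha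
    rintro (rfl | rfl)
    · omega
    · rw [h.inv r (hS.pos hr).2] at w2
      omega
  refine ⟨r, hS, ⟨fun a ha => hS.pos ha.1, fun a ha => ⟨hS.inv a ha.1, ?_⟩,
    fun a s k e ha hs => key a s k e ha.1 hs⟩, hr, rfl, key⟩
  rintro (e | e)
  · exact ha.2 (Or.inr (by rw [← e, h.inv a (hS.pos ha.1).2]; rfl))
  · refine ha.2 (Or.inl ?_)
    have := congrArg π e
    rwa [h.inv a (hS.pos ha.1).2, h.inv r (hS.pos hr).2] at this

theorem Sym.idl_induction (h : Sym T π) {P : Set ℕ → Prop} (h0 : P ∅)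
    (h1 : ∀ S S' r, Peel T π S S' r → P S' → P S) {S : Set ℕ} (hS : Idl T π S) : P S := by
  generalize hn : S.ncard = n
  induction n using Nat.strong_induction_on generalizing S with
  | _ n ih =>
    rcases S.eq_empty_or_nonempty with rfl | hne
    · exact h0
    · obtain ⟨r, hp⟩ := h.exists_peel hS hne
      refine h1 S _ r hp (ih _ ?_ hp.small rfl)
      rw [← hn]
      exact Set.ncard_lt_ncard ⟨Set.sdiff_subset, fun hh => (hh hp.mem).2 (Or.inl rfl)⟩ hS.finite

namespace Peel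

variable {S S' : Set ℕ} {r : ℕ} (hp : Peel T π S S' r)
include hp

theorem pos : r ∈ Pos T := hp.big.pos hp.mem

theorem mem' : π r ∈ S := hp.big.inv r hp.mem

theorem pos' : π r ∈ Pos T := hp.big.pos hp.mem'

theorem not_mem : r ∉ S' := by rw [hp.eq]; exact fun h => h.2 (Or.inl rfl)

theorem not_mem' : π r ∉ S' := by rw [hp.eq]; exact fun h => h.2 (Or.inr rfl)

theorem sub : S' ⊆ S := by rw [hp.eq]; exact Set.sdiff_subset

theorem mem_iff {a : ℕ} : a ∈ S ↔ a = r ∨ a = π r ∨ a ∈ S' := by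
  constructor
  · intro ha
    by_cases h1 : a = r
    · exact Or.inl h1
    by_cases h2 : a = π r
    · exact Or.inr (Or.inl h2)
    refine Or.inr (Or.inr ?_)
    rw [hp.eq]
    exact ⟨ha, fun h => h.elim h1 h2⟩
  · rintro (rfl | rfl | h)
    · exact hp.mem
    · exact hp.mem'
    · exact hp.sub h

end Peel

variable {F : Type*} [Field F] {G : Type*} [Group G] {x : ℕ → F → G}

theorem Idl.le_Us {S : Set ℕ} (h : Idl T π S) : XS x S ≤ Us D x := by
  rw [Us_eq_Pos T]; exact XS_mono h.pos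

theorem Idl.norm (H : SL T) (h0 : IsSt0 D x) {S : Set ℕ} (h : Idl T π S) :
    Us D x ≤ normalizer (XS x S : Set G) := by
  rw [Us_eq_Pos T]
  refine h0.XS_le_normalizer T (fun r hr => hr.2) (fun s hs => (h.pos hs).2) ?_ ?_
  · intro r hr s hs
    have := T.neg_lt_N hr.1 hr.2
    have := (h.pos hs).1
    omega
  · intro r hr s hs k hk i j hi hj e
    exact h.sum s r k (H.sm_of_comb hr.1 hr.2 (h.pos hs).1 (h.pos hs).2 hk hi hj e).symm hs hr.1

theorem uniq_one (H : SL T) (hn : IsND x T) (h0 : IsSt0 D x) {C : Set ℕ} (hC : C ⊆ Pos T)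
    (hc : T.Closed C) {r : ℕ} (hr : r ∈ Pos T) (h1 : r ∉ C) {a : F} (e : x r a ∈ XS x C) :
    a = 0 := by
  have c1 : T.Closed {r, r} := H.closed_pair hr hr (by rw [T.pairing_self r hr.2]; norm_num)
  have h := hn.XS_inf h0 (nil_Pos T) (S₁ := {r, r}) (by rintro a (rfl | rfl) <;> exact hr) hC c1 hc
  have e0 : ({r, r} : Set ℕ) ∩ C = ∅ := by
    ext a
    simp only [Set.mem_inter_iff, Set.mem_insert_iff, Set.mem_singleton_iff, or_self,
      Set.mem_empty_iff_false, iff_false, not_and]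
    rintro rfl
    exact h1
  have m : x r a ∈ XS x {r, r} ⊓ XS x C := ⟨mem_XS (Or.inl rfl) a, e⟩
  rw [h, e0, XS_empty, mem_bot] at m
  exact hn.eq_zero_of_x_eq_one hr.2 m

theorem uniq_two (H : SL T) (hn : IsND x T) (h0 : IsSt0 D x) {C : Set ℕ} (hC : C ⊆ Pos T)
    (hc : T.Closed C) {r s : ℕ} (hr : r ∈ Pos T) (hs : s ∈ Pos T) (hrs : s ≠ r)
    (hp : 0 ≤ D.pairing r s) (h1 : r ∉ C) (h2 : s ∉ C) {a b : F} (e : x r a * x s b ∈ XS x C) :
    a = 0 ∧ b = 0 := by
  have c1 : T.Closed {r, s} := H.closed_pair hr hs hp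
  have h := hn.XS_inf h0 (nil_Pos T) (S₁ := {r, s})
    (by rintro a (rfl | rfl) <;> assumption) hC c1 hc
  have e0 : ({r, s} : Set ℕ) ∩ C = ∅ := by
    ext a
    simp only [Set.mem_inter_iff, Set.mem_insert_iff, Set.mem_singleton_iff,
      Set.mem_empty_iff_false, iff_false, not_and]
    rintro (rfl | rfl) <;> assumption
  have m : x r a * x s b ∈ XS x {r, s} ⊓ XS x C :=
    ⟨mul_mem (mem_XS (Or.inl rfl) a) (mem_XS (Or.inr rfl) b), e⟩
  rw [h, e0, XS_empty, mem_bot, mul_eq_one_iff_eq_inv, ← h0.x_neg (T.lt_iff.2 hs.2)] at m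
  have hn' : s ≠ D.neg r := by
    have := T.neg_lt_N hr.1 hr.2
    have := hs.1
    omega
  have := indep H hn hr.2 hs.2 hrs hn' m
  exact ⟨this.1, neg_eq_zero.1 this.2⟩

namespace Peel

variable {S S' : Set ℕ} {r : ℕ} (hp : Peel T π S S' r) (H : SL T) (h0 : IsSt0 D x)
include hp H h0

theorem comm {s : ℕ} (hs : s ∈ S) (a : F) {u : G} (hu : u ∈ Us D x) :
    u⁻¹ * x s a * u * (x s a)⁻¹ ∈ XS x S' := by
  have hN := hp.small.norm H h0
  rw [Us_eq_Pos T] at hu
  have hs' := hp.big.pos hs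
  have gen : ∀ k ∈ Pos T, ∀ t : F, (x k t)⁻¹ * x s a * x k t * (x s a)⁻¹ ∈ XS x S' := by
    intro k hk t
    have hn : k ≠ D.neg s := by
      have := T.neg_lt_N hs'.1 hs'.2
      have := hk.1
      omega
    have := h0.comm_mem T hs'.2 hk.2 hn (S := S') (fun m hm i j hi hj e =>
      hp.sum s k m (H.sm_of_comb hs'.1 hs'.2 hk.1 hk.2 hm hi hj e) hs hk.1) (-a) t
    rwa [h0.x_neg (T.lt_iff.2 hs'.2), inv_inv] at this
  have hu' : u ∈ closure {g | ∃ r ∈ Pos T, ∃ t : F, g = x r t} := hu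
  induction hu' using closure_induction'' with
  | one => simp
  | mem g hg =>
    obtain ⟨k, hk, t, rfl⟩ := hg
    exact gen k hk t
  | inv_mem g hg =>
    obtain ⟨k, hk, t, rfl⟩ := hg
    rw [← h0.x_neg (T.lt_iff.2 hk.2)]
    exact gen k hk _
  | mul g g' hg hg' ih ih' =>
    have e : (g * g')⁻¹ * x s a * (g * g') * (x s a)⁻¹ =
        g'⁻¹ * (g⁻¹ * x s a * g * (x s a)⁻¹) * g' * (g'⁻¹ * x s a * g' * (x s a)⁻¹) := by group
    rw [e]
    exact mul_mem (conj_mem_of_mem_normalizer' (hN (by rw [Us_eq_Pos T]; exact hg')) (ih hg))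
      (ih' hg')

theorem dec_one (e : π r = r) {f : G} (hf : f ∈ XS x S) : ∃ a, ∃ f' ∈ XS x S', f = x r a * f' := by
  obtain ⟨l, hl, hl'⟩ := IsSt0.exists_list hp.small.finite
  obtain ⟨t, rfl⟩ := h0.exists_oprod (hp.big.nil H) (l := r :: l)
    (List.nodup_cons.2 ⟨fun h => hp.not_mem ((hl' r).1 h), hl⟩) (fun a => by
      rw [hp.mem_iff, List.mem_cons, hl', e]; tauto) hf
  exact ⟨t r, _, oprod_mem_XS (fun a ha => (hl' a).1 ha) t, oprod_cons r l t⟩

theorem dec_two (e : π r ≠ r) {f : G} (hf : f ∈ XS x S) :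
    ∃ a b, ∃ f' ∈ XS x S', f = x r a * x (π r) b * f' := by
  obtain ⟨l, hl, hl'⟩ := IsSt0.exists_list hp.small.finite
  obtain ⟨t, rfl⟩ := h0.exists_oprod (hp.big.nil H) (l := r :: π r :: l)
    (List.nodup_cons.2 ⟨fun h => by
        rcases List.mem_cons.1 h with h | h
        · exact e h.symm
        · exact hp.not_mem ((hl' r).1 h),
      List.nodup_cons.2 ⟨fun h => hp.not_mem' ((hl' _).1 h), hl⟩⟩) (fun a => by
      rw [hp.mem_iff, List.mem_cons, List.mem_cons, hl']) hf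
  exact ⟨t r, t (π r), _, oprod_mem_XS (fun a ha => (hl' a).1 ha) t, by
    rw [oprod_cons, oprod_cons, mul_assoc]⟩

end Peel

end Cfsg.Agent.SLE
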