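import Mathlib
import Cfsg.Agent.SLE.Aut
import Cfsg.Agent.StdL.Bas1

/-! S3326. Rigidity and the hypotheses of the doubling. -/

set_option autoImplicit false

namespace Cfsg.Agent.SLE

open Cfsg.Lie Cfsg.Agent.Chev Subgroup

variable {D : ChevalleyDatum} {T : RootTable D}

namespace Rg

theorem pair' (H : SL T) {r s k a : ℕ} (e : Sm T r s k) (ha : a < 2 * T.N) :
    D.pairing k a = D.pairing r a + D.pairing s a := by
  rw [H.symm k e.hk a ha, H.symm r e.hr a ha, H.symm s e.hs a ha, e.pair]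

theorem pos_of_hi (H : SL T) {r : ℕ} (hr : r < 2 * T.N) (h : 0 < D.pairing (hi T) r) : T.N ≤ r := by
  by_contra hn
  have := H.hi_nonneg (T.N_le_neg (not_le.1 hn)) (T.neg_lt hr)
  rw [T.pairing_neg_right _ hr] at this
  omega

/-- the roots that are dominant away from `α` -/
theorem dom (H : SL T) (E : EF T) {γ α : ℕ} (h1 : T.N ≤ γ) (h2 : γ < 2 * T.N)
    (h : ∀ r, T.N ≤ r → r < 2 * T.N → r ≠ α → 0 ≤ D.pairing γ r) :
    γ = hi T ∨ Sm T γ α (hi T) := by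
  by_cases e : γ = hi T
  · exact Or.inl e
  have h3 := H.hi_nonneg h1 h2
  have h4 := H.le_one _ (hi_lt T) γ h2 e
  have key : ∀ {a b c : ℕ}, Sm T a b c → 0 < D.pairing (hi T) b → D.pairing γ b < 0 → Sm T a α c :=
    fun s p q => by
      by_contra hn
      exact q.not_ge (h _ (pos_of_hi H s.hs p) s.hs fun e => hn (e ▸ s))
  right
  by_cases h5 : D.pairing (hi T) γ = 1
  · obtain ⟨d, s⟩ := H.exists_sub h2 (hi_lt T) (by rw [H.symm _ h2 _ (hi_lt T), h5])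
    exact key s (by rw [H.sm_ks s]; omega) (by rw [H.sm_rs s]; omega)
  · obtain ⟨d, hd, d1, d2⟩ := E.g2 _ (hi_lt T) γ h2 (by omega)
    obtain ⟨a, s⟩ := H.exists_sub hd (hi_lt T) d1
    obtain ⟨b, s'⟩ := H.exists_sub h2 hd (by rw [H.symm _ h2 _ hd, d2])
    have p1 := s.pair γ
    have p2 := s'.pair (hi T)
    rw [H.symm _ h2 _ (hi_lt T), H.symm _ h2 _ hd] at p1
    rw [H.symm _ (hi_lt T) _ hd] at p2
    have q1 := H.sm_sr (key s (by rw [H.sm_ks s]; omega) (by omega))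
    have q2 := H.sm_sk (key s' (by omega) (by rw [H.sm_rs s']; omega))
    omega

theorem dom0 (H : SL T) (E : EF T) {γ : ℕ} (h1 : T.N ≤ γ) (h2 : γ < 2 * T.N)
    (h : ∀ r, T.N ≤ r → r < 2 * T.N → 0 ≤ D.pairing γ r) : γ = hi T :=
  (dom H E (α := 2 * T.N) h1 h2 fun r a b _ => h r a b).resolve_right fun s => s.hs.false

theorem sym_hi (H : SL T) (E : EF T) {π : ℕ → ℕ} (h : Sym T π) : π (hi T) = hi T :=
  dom0 H E ((h.pos _ (hi_lt T)).2 (le_hi T)) (h.lt _ (hi_lt T)) fun r a b => by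
    rw [← h.inv r b, h.pair _ (hi_lt T) _ (h.lt r b)]
    exact H.hi_nonneg ((h.pos r b).2 a) (h.lt r b)

theorem sub_nonneg (H : SL T) {b r : ℕ} {i : Fin D.rank} (s : Sm T b (D.simple i) (hi T))
    (h1 : T.N ≤ r) (h2 : r < 2 * T.N) (h3 : r ≠ D.simple i) : 0 ≤ D.pairing b r := by
  have p1 := pair' H s h2
  have p2 := H.hi_nonneg h1 h2
  have p3 := H.le_one _ s.hs r h2 h3
  by_contra hn
  have p4 : D.pairing (D.simple i) r = 1 := by omega
  obtain ⟨ρ, s'⟩ := H.exists_sub s.hs h2 p4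
  have p5 : D.reflectRoot i r = ρ := T.vec_inj (T.refl_lt i r h2) s'.hs (by
    rw [T.vec_refl' i r h2, ← T.pairing_simple, p4, s'.eq, T.vec_simple]; simp)
  have p6 := H.hi_nonneg (p5 ▸ T.refl_pos i r h1 h2 h3) s'.hs
  have p7 := s'.pair (hi T)
  have p8 := H.sm_ks s
  omega

theorem exists_d (H : SL T) (E : EF T) {r s k : ℕ} (hr : r < 2 * T.N) (hs : s < 2 * T.N)
    (hk : k < 2 * T.N) (h : D.pairing r s = 0) :
    ∃ d e, Sm T d e k ∧ D.pairing r d + D.pairing s d ≤ 0 := by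
  have key : ∀ {r s : ℕ}, r < 2 * T.N → s < 2 * T.N → D.pairing r s = 0 → 0 < D.pairing r k →
      ∃ d e, Sm T d e k ∧ D.pairing r d + D.pairing s d ≤ 0 := by
    intro r s hr hs h p
    have h' := H.symm r hr s hs
    by_cases e : k = r
    · subst e
      obtain ⟨d, hd, d1, d2⟩ := E.g2 _ hk s hs h
      obtain ⟨a, q⟩ := H.exists_sub hd hk d1
      have p1 := q.pair s
      have p2 := H.sm_ks q
      rw [H.symm s hs d hd] at p1
      exact ⟨a, d, q.symm, by omega⟩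
    · have p1 := H.le_one r hr k hk e
      obtain ⟨a, q⟩ := H.exists_sub hr hk (by omega)
      have p2 := q.pair s
      have p3 := H.sm_rs q
      have p4 := H.le_one s hs k hk (by rintro rfl; omega)
      exact ⟨a, r, q.symm, by omega⟩
  by_cases p : 0 < D.pairing r k
  · exact key hr hs h p
  by_cases p' : 0 < D.pairing s k
  · simpa only [add_comm] using key hs hr (by rw [H.symm s hs r hr, h]) p'
  obtain ⟨d, e, q⟩ := H.exists_dec hk
  have p1 := q.pair r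
  have p2 := q.pair s
  by_cases c : D.pairing r d + D.pairing s d ≤ 0
  exacts [⟨d, e, q, c⟩, ⟨e, d, q.symm, by omega⟩]

theorem exists_w (H : SL T) {r s : ℕ} (hr : r < 2 * T.N) (hs : s < 2 * T.N) : ∃ w : T.W,
    ∀ ρ, T.N ≤ ρ → ρ < 2 * T.N → 0 ≤ D.pairing (T.act w r) ρ + D.pairing (T.act w s) ρ := by
  obtain ⟨w, hw⟩ := Finite.exists_max fun w : T.W =>
    T.val (T.vec (T.act w r)) + T.val (T.vec (T.act w s))
  refine ⟨w, fun ρ h1 h2 => ?_⟩
  rw [Au.pair_sum H (T.act_lt w hr) h2, Au.pair_sum H (T.act_lt w hs) h2, ← Finset.sum_add_distrib]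
  refine Finset.sum_nonneg fun i _ => ?_
  rw [← mul_add]
  refine mul_nonneg (T.vec_nonneg ρ h1 h2 i) ?_
  have h3 := hw (T.cs.simple i * w)
  have h4 := T.val_pos (T.N_le_simple i) (T.simple_lt i)
  simp only [T.act_mul, T.act_simple i (T.act_lt w hr), T.act_simple i (T.act_lt w hs),
    T.vec_refl' i _ (T.act_lt w hr), T.vec_refl' i _ (T.act_lt w hs), map_sub, map_zsmul,
    smul_eq_mul, ← T.vec_simple] at h3
  nlinarith

variable {F : Type*} [Field F] {G : Type*} [Group G] {x : ℕ → F → G}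

/-- the filtration of `U` by the index -/
def Fm (T : RootTable D) (x : ℕ → F → G) (m : ℕ) : Subgroup G := XS x {r | m ≤ r ∧ r < 2 * T.N}

theorem Fm_le {m : ℕ} (h : T.N ≤ m) : Fm T x m ≤ Us D x := by
  rw [T.Us_eq]; exact XS_mono fun r hr => ⟨h.trans hr.1, hr.2⟩

theorem Fm_anti {m n : ℕ} (h : m ≤ n) : Fm T x n ≤ Fm T x m :=
  XS_mono fun _ hr => ⟨h.trans hr.1, hr.2⟩

theorem set_ge {k : ℕ} (h1 : T.N ≤ k) (h2 : k < 2 * T.N) :
    {r | r ∈ {r | T.N ≤ r ∧ r < 2 * T.N} ∧ T.val (T.vec k) ≤ T.val (T.vec r)} =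
      {r | k ≤ r ∧ r < 2 * T.N} := by
  ext r
  exact ⟨fun h => ⟨not_lt.1 fun c => ((T.val_lt_iff h.1.2 h2).2 c).not_ge h.2, h.1.2⟩,
    fun h => ⟨⟨h1.trans h.1, h.2⟩, not_lt.1 fun c => ((T.val_lt_iff h.2 h2).1 c).not_ge h.1⟩⟩

theorem set_gt {k : ℕ} (h1 : T.N ≤ k) (h2 : k < 2 * T.N) :
    {r | r ∈ {r | T.N ≤ r ∧ r < 2 * T.N} ∧ T.val (T.vec k) + 1 ≤ T.val (T.vec r)} =
      {r | k + 1 ≤ r ∧ r < 2 * T.N} := by
  ext r
  exact ⟨fun h => ⟨(T.val_lt_iff h2 h.1.2).1 h.2, h.1.2⟩,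
    fun h => ⟨⟨by have := h.1; omega, h.2⟩, (T.val_lt_iff h2 h.2).2 h.1⟩⟩

theorem val_pos' : ∀ r ∈ {r | T.N ≤ r ∧ r < 2 * T.N}, 0 < T.val (T.vec r) :=
  fun _ hr => T.val_pos hr.1 hr.2

theorem nd (hn : IsND x T) {k : ℕ} (h1 : T.N ≤ k) (h2 : k < 2 * T.N) {a : F}
    (h : x k a ∈ Fm T x (k + 1)) : a = 0 :=
  hn.nd T.val k h2 (T.val_pos h1 h2) a
    (XS_mono (fun _ hr => And.intro hr.2 ((T.val_lt_iff h2 hr.2).2 hr.1)) h)

theorem conj_lead (h : IsSt0 D x) {k : ℕ} (h1 : T.N ≤ k) (h2 : k < 2 * T.N) (a : F) {u : G}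
    (hu : u ∈ Us D x) : (x k a)⁻¹ * (u⁻¹ * x k a * u) ∈ Fm T x (k + 1) := by
  have := h.comm_mem_filt T.nil_pos' val_pos' (And.intro h1 h2) le_rfl a (T.Us_eq (x := x) ▸ hu)
  rw [set_gt h1 h2] at this
  simpa only [mul_assoc, Fm] using this

theorem x_mem {k m : ℕ} (h1 : m ≤ k) (h2 : k < 2 * T.N) (a : F) : x k a ∈ Fm T x m :=
  mem_XS (And.intro h1 h2) a

theorem lead_eq (hn : IsND x T) (h : IsSt0 D x) {k j : ℕ} (h1 : T.N ≤ k) (h2 : k < 2 * T.N)
    (h3 : T.N ≤ j) (h4 : j < 2 * T.N) {a b : F} (ha : a ≠ 0) (hb : b ≠ 0)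
    (e : (x k a)⁻¹ * x j b ∈ Fm T x (k + 1)) : j = k := by
  rcases lt_trichotomy j k with c | c | c
  · exact absurd (nd hn h3 h4 (by
      simpa using mul_mem (x_mem (m := j + 1) c h2 a) (Fm_anti (by omega) e))) hb
  · exact c
  · exact absurd (nd hn h1 h2 (by simpa using mul_mem (x_mem (m := k + 1) c h4 b) (inv_mem e))) ha

theorem mem_of_lead (hn : IsND x T) (h : IsSt0 D x) {k : ℕ} (h1 : T.N ≤ k) (h2 : k < 2 * T.N)
    {S : Set ℕ} (hS : S ⊆ {r | T.N ≤ r ∧ r < 2 * T.N}) (hc : T.Closed S) {a : F} (ha : a ≠ 0) {y : G}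
    (hy : y ∈ XS x S) (e : (x k a)⁻¹ * y ∈ Fm T x (k + 1)) : k ∈ S := by
  by_contra hk
  have c : T.Closed {r | k ≤ r ∧ r < 2 * T.N} := fun r hr s hs j hj a b ha hb e => by
    have p := T.closed_gt T.val (m := T.val (T.vec k) - 1) (by have := T.val_pos h1 h2; omega) r
      ⟨hr.2, by have := (set_ge h1 h2).ge hr; exact Int.sub_one_lt_iff.2 this.2⟩ s
      ⟨hs.2, by have := (set_ge h1 h2).ge hs; exact Int.sub_one_lt_iff.2 this.2⟩ j hj a b ha hb e
    exact ⟨not_lt.1 fun c => ((T.val_lt_iff hj h2).2 c).not_ge (Int.sub_one_lt_iff.1 p.2), hj⟩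
  have h3 : y ∈ XS x S ⊓ Fm T x k :=
    ⟨hy, by simpa using mul_mem (x_mem le_rfl h2 a) (Fm_anti k.le_succ e)⟩
  rw [Fm, hn.XS_inf h T.nil_pos' hS (fun r hr => ⟨h1.trans hr.1, hr.2⟩) hc c] at h3
  have h4 : y ∈ Fm T x (k + 1) := XS_mono (fun r hr =>
    And.intro (Nat.lt_of_le_of_ne hr.2.1 fun e : k = r => hk (e ▸ hr.1)) hr.2.2) h3
  exact ha (nd hn h1 h2 (by simpa using mul_mem h4 (inv_mem e)))

theorem comm_XS {S : Set ℕ} {g : G} (h : ∀ r ∈ S, ∀ a, Commute g (x r a)) {m : G} (hm : m ∈ XS x S) :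
    Commute g m := by
  have : XS x S ≤ centralizer {g} := XS_le.2 fun r hr a =>
    mem_centralizer_singleton_iff.2 (h r hr a).symm.eq
  exact (mem_centralizer_singleton_iff.1 (this hm)).symm

theorem XS_le_Gs {S : Set ℕ} (h : ∀ r ∈ S, r < 2 * T.N) : XS x S ≤ Gs D x :=
  XS_mono fun r hr => T.lt_iff.2 (h r hr)

theorem HH_le (r : ℕ) : HH T x r ≤ Gs D x := XS_le_Gs fun _ h => h.1

theorem xG {r : ℕ} (hr : r < 2 * T.N) (a : F) : x r a ∈ Gs D x := mem_Gs (T.lt_iff.2 hr) a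

theorem cen {k g : G} (hk : k ∈ centralizer (Gs D x : Set G)) (hg : g ∈ Gs D x) : Commute k g :=
  (hk g hg).symm

theorem hi_comm (H : SL T) (h : IsSt0 D x) (a : F) {u : G} (hu : u ∈ Us D x) :
    Commute (x (hi T) a) u :=
  comm_XS (fun _ hr b => H.com h (hi_lt T) hr.1 hr.2 a b) (Us_le_HH H x hu)

theorem fix_root (hn : IsND x T) (h : IsSt0 D x) {u d : G} {π : ℕ → ℕ} {c : ℕ → F} {σ : F ≃+* F}
    (hu : u ∈ Us D x) (n : Nf T x d π c σ) {β : ℕ} (h1 : T.N ≤ β) (h2 : β < 2 * T.N)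
    (hc : ∀ a, Commute (u * d) (x β a)) : π β = β ∧ c β = 1 ∧ ∀ a, σ a = a := by
  have e : ∀ a, (x β a)⁻¹ * x (π β) (c β * σ a) ∈ Fm T x (β + 1) := fun a => by
    have := conj_lead h h1 h2 a hu
    rwa [show u⁻¹ * x β a * u = d * x β a * d⁻¹ by
      rw [mul_assoc, inv_mul_eq_iff_eq_mul, ← mul_assoc, ← mul_assoc, (hc a).eq]; group,
      n.conj β h2] at this
  have e1 := lead_eq hn h h1 h2 ((n.sym.pos β h2).2 h1) (n.sym.lt β h2) one_ne_zero
    (by simpa using n.ne β h2) (e 1)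
  have e2 : ∀ a, c β * σ a = a := fun a => by
    have := e a
    rw [e1, ← h.x_neg (T.lt_iff.2 h2), h.add _ (T.lt_iff.2 h2)] at this
    exact (neg_add_eq_zero.1 (nd hn h1 h2 this)).symm
  have e3 : c β = 1 := by simpa using e2 1
  exact ⟨e1, e3, fun a => by simpa [e3] using e2 a⟩

theorem cen_of_simple (h : IsSt D x) {d : G} {π : ℕ → ℕ} {c : ℕ → F} {σ : F ≃+* F}
    (n : Nf T x d π c σ) (h1 : ∀ i : Fin D.rank, π (D.simple i) = D.simple i ∧ c (D.simple i) = 1)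
    (h2 : ∀ a, σ a = a) : d ∈ centralizer (Gs D x : Set G) := by
  have : Gs D x ≤ centralizer {d} := h.Gs_le_of_simple T
    (fun i a => mem_centralizer_singleton_iff.2 (by
      rw [eq_comm, ← mul_inv_eq_iff_eq_mul, n.conj _ (T.simple_lt i), (h1 i).1, (h1 i).2, h2, one_mul]))
    fun i a => mem_centralizer_singleton_iff.2 (by
      rw [eq_comm, ← mul_inv_eq_iff_eq_mul, n.conj _ (T.neg_lt (T.simple_lt i)),
        n.sym.neg _ (T.simple_lt i), n.neg _ (T.simple_lt i), (h1 i).1, (h1 i).2, h2, inv_one, one_mul])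
  exact fun a ha => mem_centralizer_singleton_iff.1 (this ha)

theorem ae_comm {n g : G} {w : T.W} (h : AE T x n w) {ρ : ℕ} (hρ : ρ < 2 * T.N) {a : F}
    (hc : Commute g (x (T.act w⁻¹ ρ) a)) : Commute (n * g * n⁻¹) (x ρ a) := by
  have := hc.map (MulAut.conj n).toMonoidHom
  simp only [MulEquiv.coe_toMonoidHom, MulAut.conj_apply] at this
  rwa [h.conj _ (T.act_lt _ hρ), T.act_act_inv] at this

theorem pair_inv (w : T.W) {r ρ : ℕ} (hr : r < 2 * T.N) (hρ : ρ < 2 * T.N) :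
    D.pairing r (T.act w⁻¹ ρ) = D.pairing (T.act w r) ρ := by
  rw [← T.pairing_act w hr (T.act_lt _ hρ), T.act_act_inv]

theorem ae_G {n : G} {w : T.W} (h : AE T x n w) : n ∈ Gs D x := T.Ns_le_Gs h.mem

theorem ae_nrm {n g : G} {w : T.W} (h : AE T x n w) (hg : g ∈ normalizer (Gs D x : Set G)) :
    n * g * n⁻¹ ∈ normalizer (Gs D x : Set G) :=
  mul_mem (mul_mem (le_normalizer (ae_G h)) hg) (inv_mem (le_normalizer (ae_G h)))

theorem ae_back {n g y z : G} {w : T.W} (h : AE T x n w) (hz : z ∈ centralizer (Gs D x : Set G))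
    (e : n * g * n⁻¹ = n * y * n⁻¹ * z) : g = y * z := by
  rw [mul_assoc _ n⁻¹, ← (cen hz (inv_mem (ae_G h))).eq, ← mul_assoc, mul_left_inj, mul_assoc,
    mul_right_inj] at e
  exact e

variable [CharP F 2]

theorem x_sq (h : IsSt0 D x) {r : ℕ} (hr : r < 2 * T.N) (a : F) : x r a * x r a = 1 := by
  rw [h.add r (T.lt_iff.2 hr), CharTwo.add_self_eq_zero, h.x_zero (T.lt_iff.2 hr)]

theorem lead_zero (H : SL T) (hn : IsND x T) (h : IsSt0 D x) {γ r k : ℕ} (s : Sm T γ r k)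
    (h1 : T.N ≤ γ) (h2 : T.N ≤ r) {a : F} {u : G} (hu : u ∈ Fm T x (γ + 1))
    (hc : Commute (x γ a * u) (x r 1)) : a = 0 := by
  have h3 := s.pos h1 h2
  have nrm := h.le_normalizer_filt T.nil_pos' val_pos' (T.val (T.vec k) + 1)
  rw [set_gt h3 s.hk] at nrm
  have h4 := comm_mem_of_closure nrm (S := {g | ∃ j ∈ {j | γ + 1 ≤ j ∧ j < 2 * T.N}, ∃ t, g = x j t})
    (z := x r 1) (by rintro _ ⟨j, hj, t, rfl⟩; exact mem_XS (And.intro (by have := hj.1; omega) hj.2) t)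
    (by
      rintro _ ⟨j, hj, t, rfl⟩
      have j1 : T.N ≤ j := by have := hj.1; omega
      refine h.comm_mem T hj.2 s.hs (T.nil_pos'.ne_neg (And.intro j1 hj.2) (And.intro h2 s.hs))
        (fun l hl a b ha hb e => And.intro ((T.val_lt_iff s.hk hl).1 ?_) hl) t 1
      have p1 := (T.val_lt_iff s.hr hj.2).2 hj.1
      have p2 := T.val_pos j1 hj.2
      have p3 := T.val_pos h2 s.hs
      have p4 : (1 : ℤ) ≤ a := by exact_mod_cast ha
      have p5 : (1 : ℤ) ≤ b := by exact_mod_cast hb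
      rw [e, s.eq, map_add, map_add, map_nsmul, map_nsmul, nsmul_eq_mul, nsmul_eq_mul]
      nlinarith) (inv_mem hu)
  have h5 := H.sum h s a 1
  rw [mul_one] at h5
  refine nd hn h3 s.hk ?_
  have h6 : x k a = (x r 1)⁻¹ * u⁻¹⁻¹ * x r 1 * u⁻¹ := by
    calc x k a = (x r 1)⁻¹ * (x γ a)⁻¹ * (x r 1 * (x γ a * u)) * u⁻¹ := by
          rw [← mul_assoc (x r 1), h5]; group
      _ = _ := by rw [← hc.eq]; group
  rw [h6]
  exact h4

/-- what `Ext` really says for `M = HH` -/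
theorem ext_comm (H : SL T) (E : EF T) (h : IsSt0 D x) {r s ρ : ℕ} (hr : r < 2 * T.N)
    (hs : s < 2 * T.N) (hρ : ρ < 2 * T.N) (h0 : D.pairing r s = 0 ∨ D.pairing r s = -1) {g : G}
    (e : Ext T x (HH T x) r s g) (p : 0 ≤ D.pairing r ρ + D.pairing s ρ) (a : F) :
    Commute g (x ρ a) := by
  have key : ∀ {r s : ℕ}, r < 2 * T.N → s < 2 * T.N → D.pairing r s = 0 ∨ D.pairing r s = -1 →
      (∀ c d k, Sm T c d r → Sm T s d k → ∀ m ∈ HH T x k ⊓ HH T x c, Commute g (x d 1 * m * x d 1)) →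
      0 ≤ D.pairing r ρ + D.pairing s ρ → D.pairing s ρ < 0 → Commute g (x ρ a) := by
    intro r s hr hs h0 l p q
    have n1 := T.pairing_neg_right r hs
    have n2 := T.pairing_neg_right ρ hs
    have n3 := H.symm ρ hρ s hs
    have n4 := H.symm ρ hρ r hr
    have n5 : D.pairing s ρ = -1 := by
      refine le_antisymm (by omega) (H.neg_one_le hs hρ ?_)
      rintro rfl
      have := T.pairing_neg_right s hs
      have := T.pairing_self s hs
      omega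
    obtain ⟨d, hd, d1, d2, d3⟩ := E.g4 r hr _ (T.neg_lt hs) ρ hρ (by omega) (by omega) (by omega)
    rw [T.pairing_neg_right d hs] at d2
    obtain ⟨c, s1⟩ := H.exists_sub hd hr d1
    obtain ⟨k, s2⟩ := SL.exists_sm hs hd (by rw [H.symm s hs d hd]; omega)
    have q1 := pair' H s1 hρ
    have q2 := pair' H s2 hρ
    have := l c d k s1.symm s2 (x ρ a) ⟨mem_XS (And.intro hρ (by omega)) a,
      mem_XS (And.intro hρ (by omega)) a⟩
    rwa [(H.com h hd hρ (by omega) 1 a).eq, mul_assoc, x_sq h hd, mul_one] at this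
  by_cases c1 : D.pairing s ρ < 0
  · exact key hr hs h0 e.l p c1
  by_cases c2 : D.pairing r ρ < 0
  · exact key hs hr (by rwa [H.symm s hs r hr]) e.r (by omega) c2
  exact e.inf _ ⟨mem_XS (And.intro hρ (by omega)) a, mem_XS (And.intro hρ (by omega)) a⟩

end Rg

open Rg

variable {F : Type*} [Field F] [Finite F] [CharP F 2] {G : Type*} [Group G] [Finite G]
  {x : ℕ → F → G}

omit [Finite F] [Finite G] in
/-- Leading term lemma. -/
theorem Lie.cent_U (h : Lie T x) {Ψ : Set ℕ} (hΨ : ∀ r ∈ Ψ, T.N ≤ r ∧ r < 2 * T.N) {u : G}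
    (hu : u ∈ Us D x) (hc : ∀ r ∈ Ψ, Commute u (x r 1)) :
    u ∈ XS x {γ | T.N ≤ γ ∧ γ < 2 * T.N ∧ ∀ r ∈ Ψ, 0 ≤ D.pairing γ r} := by
  have h0 := h.st.toIsSt0
  have key : ∀ j m, m + j = 2 * T.N → T.N ≤ m → ∀ u ∈ Fm T x m, (∀ r ∈ Ψ, Commute u (x r 1)) →
      u ∈ XS x {γ | T.N ≤ γ ∧ γ < 2 * T.N ∧ ∀ r ∈ Ψ, 0 ≤ D.pairing γ r} := by
    intro j
    induction j with
    | zero => exact fun m e _ u hu _ => XS_mono (fun r hr => by have := hr.1; have := hr.2; omega) hu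
    | succ j ih =>
      intro m e h1 u hu hc
      have h2 : m < 2 * T.N := by omega
      obtain ⟨a, ha⟩ := h0.exists_eq_mul_filt T.nil_pos' val_pos' (And.intro h1 h2)
        (fun r hr e => T.val_inj hr.2 h2 e) (u := u) (by rwa [set_ge h1 h2])
      rw [set_gt h1 h2] at ha
      by_cases c : ∀ r ∈ Ψ, 0 ≤ D.pairing m r
      · simpa using mul_mem (mem_XS (And.intro h1 (And.intro h2 c)) a) (ih _ (by omega) (by omega) _ ha
          fun r hr => (h.sl.com h0 h2 (hΨ r hr).2 (c r hr) a 1).inv_left.mul_left (hc r hr))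
      · push Not at c
        obtain ⟨r, hr, c⟩ := c
        obtain ⟨k, s⟩ := ((h.sl.tri_cases h2 (hΨ r hr).2).resolve_left
          (T.nil_pos'.ne_neg (And.intro h1 h2) (hΨ r hr))).resolve_left c.not_ge
        rw [lead_zero (a := a) h.sl h.nd h0 s h1 (hΨ r hr).1 ha (by simpa using hc r hr),
          h0.x_zero (T.lt_iff.2 h2), inv_one, one_mul] at ha
        exact ih _ (by omega) (by omega) u ha hc
  exact key T.N T.N (by omega) le_rfl u (by rwa [T.Us_eq] at hu) hc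

theorem Lie.rig0 (h : Lie T x) {g : G} (hg : g ∈ normalizer (Gs D x : Set G))
    (hc : ∀ u ∈ Us D x, Commute g u) :
    ∃ a, ∃ k ∈ centralizer (Gs D x : Set G), g = x (hi T) a * k := by
  obtain ⟨l, -, d, π, c, σ, rfl, n, hl⟩ := h.exists_dec hg
  replace hl := hl (centralizer_le_normalizer _ fun u hu => (hc u hu).symm.eq)
  have f := fun i : Fin D.rank => fix_root h.nd h.st.toIsSt0 hl n (T.N_le_simple i) (T.simple_lt i)
    fun a => hc _ (T.mem_Us' (T.N_le_simple i) (T.simple_lt i) a)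
  have hd := cen_of_simple h.st n (fun i => ⟨(f i).1, (f i).2.1⟩) (f ⟨0, T.rank_pos⟩).2.2
  have h1 := h.cent_U (Ψ := {r | T.N ≤ r ∧ r < 2 * T.N}) (fun _ hr => hr) hl fun r hr => by
    simpa using (hc _ (T.mem_Us' hr.1 hr.2 1)).mul_left (cen hd (xG hr.2 1)).inv_left
  obtain ⟨a, rfl⟩ := (h.st.toIsSt0.mem_XS_singleton (T.lt_iff.2 (hi_lt T))).1 (XS_mono
    (fun γ hγ => dom0 h.sl h.ef hγ.1 hγ.2.1 fun r a b => hγ.2.2 r ⟨a, b⟩) h1)
  exact ⟨a, d, hd, rfl⟩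

theorem Rg.rig2' (h : Lie T x) {b : ℕ} {i : Fin D.rank} (s : Sm T b (D.simple i) (hi T)) {g : G}
    (hg : g ∈ normalizer (Gs D x : Set G))
    (hc : ∀ r, T.N ≤ r → r < 2 * T.N → r ≠ D.simple i → ∀ a, Commute g (x r a)) :
    ∃ a a', ∃ z ∈ centralizer (Gs D x : Set G), g = x b a * x (hi T) a' * z := by
  have h0 := h.st.toIsSt0
  have θ1 := le_hi T
  have θ2 := hi_lt T
  have b1 : T.N ≤ b := pos_of_hi h.sl s.hr (by rw [h.sl.sm_kr s]; omega)
  have b2 : b ≠ D.simple i := fun e => by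
    have p := h.sl.sm_rs s
    rw [e, T.pairing_self _ s.hs] at p
    omega
  obtain ⟨l, hl, d, π, c, σ, rfl, n, hU⟩ := h.exists_dec hg
  obtain ⟨b₀, hb, m, hm, w, hw, u, hu, rfl⟩ := h.st.exists_bruhat T hl
  replace hu := T.XS_invSet_le_Us w hu
  have nB := h.st.Bs_le_normalizer_Us T
  have e : ∀ r, T.N ≤ r → r < 2 * T.N → r ≠ D.simple i →
      m * (u * x (π r) (c r) * u⁻¹) * m⁻¹ = b₀⁻¹ * x r 1 * b₀ := fun r r1 r2 r3 => by
    have p := n.conj r r2 1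
    rw [map_one, mul_one] at p
    rw [← p]
    calc _ = b₀⁻¹ * (b₀ * m * u * d * x r 1) * (b₀ * m * u * d)⁻¹ * b₀ := by group
      _ = _ := by rw [(hc r r1 r2 r3 1).eq]; group
  obtain ⟨j, hj⟩ := n.sym.simple i
  have pos : ∀ r, T.N ≤ r → r < 2 * T.N → r ≠ D.simple j → T.N ≤ T.act w r := fun r r1 r2 r3 => by
    have q1 := (n.sym.pos r r2).2 r1
    have q2 := n.sym.lt r r2
    have p := e _ q1 q2 fun e => r3 (by rw [← hj, ← e, n.sym.inv r r2])
    rw [n.sym.inv r r2] at p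
    exact (mem_of_lead h.nd h0 r1 r2 (fun _ hr => hr.1) (T.closed_coinvSet w) (n.ne _ q2)
      (h.nd.mem_coinvSet h.st hw (mul_mem (mul_mem hu (T.mem_Us' r1 r2 _)) (inv_mem hu))
        (p ▸ mul_mem (mul_mem (inv_mem hb) (Us_le_Bs (T.mem_Us' q1 q2 1))) hb))
      (by simpa using conj_lead h0 r1 r2 (c (π r)) (inv_mem hu))).2
  have wθ : T.act w (hi T) = hi T := by
    have p := e _ θ1 θ2 s.ne_right
    obtain ⟨a, ha, p1⟩ := hw.conj θ2
    obtain ⟨v, hv, k, hk, rfl⟩ := (h.st.mem_Bs_iff T).1 hb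
    obtain ⟨a', -, p2⟩ := (h.st.acts_of_mem_Hs T hk).conj' θ2
    rw [sym_hi h.sl h.ef n.sym, ← (hi_comm h.sl h0 _ hu).eq, mul_inv_cancel_right, p1, mul_inv_rev,
      mul_assoc k⁻¹, ← (hi_comm h.sl h0 _ (inv_mem hv)).eq, ← mul_assoc, ← mul_assoc,
      inv_mul_cancel_right, p2, inv_one, T.act_one] at p
    exact h.nd.root_eq_of_x_eq h0 (T.act_lt w θ2) θ2 (mul_ne_zero ha (n.ne _ θ2)) p
  have w1 : w = 1 := T.eq_one_of_act_pos fun k => by
    by_cases hk : k = j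
    swap
    · exact pos _ (T.N_le_simple k) (T.simple_lt k) fun e => hk (T.simple_injective e)
    subst hk
    by_contra hn
    have p : w * T.cs.simple k = 1 := T.eq_one_of_act_pos fun k' => by
      rw [T.act_mul, T.act_simple k (T.simple_lt k')]
      by_cases hk : k' = k
      · rw [hk, RootTable.refl_simple k, T.act_neg w (T.simple_lt k)]
        exact T.N_le_neg (not_le.1 hn)
      · exact pos _ (T.refl_pos k _ (T.N_le_simple k') (T.simple_lt k')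
          fun e => hk (T.simple_injective e)) (T.refl_lt k _ (T.simple_lt k'))
          (T.refl_ne_simple k (T.N_le_simple k') (T.simple_lt k'))
    rw [eq_inv_of_mul_eq_one_left p, T.cs.inv_simple, T.act_simple k θ2] at wθ
    refine (T.refl_lt_self θ2 ?_).ne wθ
    rw [← T.pairing_simple, ← hj, ← sym_hi h.sl h.ef n.sym, n.sym.pair _ s.hs _ θ2, h.sl.sm_sk s]
    omega
  subst w1
  replace hU := hU (mul_mem (nB (mul_mem (mul_mem hb (Hs_le_Bs (h.nd.mem_Hs_of_acts_one h.st hm hw)))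
    (Us_le_Bs hu))) (Au.nf_Us n))
  generalize b₀ * m * u = l at hU hc
  have f := fun r r1 r2 r3 => fix_root h.nd h0 hU n r1 r2 (hc r r1 r2 r3)
  have f1 := f b b1 s.hr b2
  have f2 := f _ θ1 θ2 s.ne_right
  have hd := cen_of_simple h.st n (fun k => by
    by_cases hk : D.simple k = D.simple i
    · have p := n.sym.sum _ _ _ s
      have q := n.mul _ _ _ s
      rw [f1.1, f2.1] at p
      rw [f1.2.1, f2.2.1, one_mul] at q
      rw [hk]
      exact ⟨p.uniq' s, q.symm⟩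
    · exact ⟨(f _ (T.N_le_simple k) (T.simple_lt k) hk).1,
        (f _ (T.N_le_simple k) (T.simple_lt k) hk).2.1⟩) f1.2.2
  have h1 := h.cent_U (Ψ := {r | (T.N ≤ r ∧ r < 2 * T.N) ∧ r ≠ D.simple i}) (fun _ hr => hr.1) hU
    fun r hr => by simpa using (hc r hr.1.1 hr.1.2 hr.2 1).mul_left (cen hd (xG hr.1.2 1)).inv_left
  have h2 : l ∈ XS x {hi T} ⊔ XS x {b} := by
    rw [← XS_union]
    exact XS_mono (fun γ hγ => (dom h.sl h.ef hγ.1 hγ.2.1 fun r a b c => hγ.2.2 r ⟨⟨a, b⟩, c⟩).imp id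
      fun s' => s'.symm.uniq' s.symm) h1
  obtain ⟨p, hp, q, hq, rfl⟩ := (mem_sup_iff_of_le_normalizer' (XS_le.2 fun r hr a =>
    centralizer_le_normalizer _ fun y hy => (comm_XS (fun k hk a' => by
      rw [show k = hi T from hk, show r = b from hr]
      exact (hi_comm h.sl h0 a' (T.mem_Us' b1 s.hr a)).symm) hy).symm.eq)).1 h2
  obtain ⟨a, rfl⟩ := (h0.mem_XS_singleton (T.lt_iff.2 s.hr)).1 hp
  obtain ⟨a', rfl⟩ := (h0.mem_XS_singleton (T.lt_iff.2 θ2)).1 hq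
  exact ⟨a, a', d, hd, rfl⟩

theorem Lie.rig2 (h : Lie T x) {c d k : ℕ} (e : Sm T c d k) {g : G}
    (hg : g ∈ normalizer (Gs D x : Set G)) (hc : ∀ m ∈ NN T x c k, Commute g m) :
    ∃ a b, ∃ z ∈ centralizer (Gs D x : Set G), g = x c a * x k b * z := by
  obtain ⟨i, hi1, -⟩ := h.ef.alpha
  obtain ⟨b, s⟩ := h.sl.exists_sub (T.simple_lt i) (hi_lt T)
    (by rw [h.sl.symm _ (T.simple_lt i) _ (hi_lt T), hi1])
  obtain ⟨w, w1, -, w3⟩ := h.sl.tr_sm e s.symm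
  obtain ⟨n, hn⟩ := AE.ex (T := T) h.st w
  obtain ⟨a, a', z, hz, e'⟩ := rig2' h s.symm (ae_nrm hn hg) fun r r1 r2 r3 a =>
    ae_comm hn r2 (hc _ (mem_XS (And.intro (T.act_lt _ r2) (And.intro
      (by rw [pair_inv w e.hr r2, w1]; exact sub_nonneg h.sl s.symm r1 r2 r3)
      (by rw [pair_inv w e.hk r2, w3]; exact h.sl.hi_nonneg r1 r2))) a))
  refine ⟨a, a', z, hz, ae_back hn hz ?_⟩
  rw [e', ← w1, ← w3, ← hn.conj _ e.hr, ← hn.conj _ e.hk]
  group

omit [Finite F] [CharP F 2] in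
theorem Rg.two_K0 {t : G} (h : Std T x t) (hn : Nsq D x t) {k : G} (hk : k ∈ K0 D x t) {n : ℕ}
    (h2 : k ^ 2 ^ n = 1) : k = 1 ∨ k = t := by
  have tK : t ∈ K0 D x t := ⟨mem_centralizer_singleton_iff.2 rfl, fun g hg =>
    (comm_XS (fun r hr a => h.tx r (T.lt_iff.1 hr) a) hg).symm.eq⟩
  have le : zpowers k ⊔ zpowers t ≤ K0 D x t := sup_le (zpowers_le.2 hk) (zpowers_le.2 tK)
  have p : IsPGroup 2 ↥(zpowers k ⊔ zpowers t) := PLocal.Amb.isPGroup_sup
    (PLocal.Amb.isPGroup_zpowers ⟨n, h2⟩) (PLocal.Amb.isPGroup_zpowers ⟨1, by rw [pow_one, sq, h.tt]⟩)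
    (zpowers_le.2 (centralizer_le_normalizer _ (by
      rintro _ ⟨i, rfl⟩
      exact ((show Commute k t from mem_centralizer_singleton_iff.1 hk.1).zpow_right i).symm.eq)))
  haveI := h.cyc _ (le.trans inf_le_right) p
  obtain ⟨y, hy⟩ := IsCyclic.exists_monoid_generator (α := ↥(zpowers k ⊔ zpowers t))
  obtain ⟨i, hi⟩ := hy ⟨t, mem_sup_right (mem_zpowers t)⟩
  obtain ⟨j, hj⟩ := hy ⟨k, mem_sup_left (mem_zpowers k)⟩
  obtain ⟨m, hm⟩ := p y
  have e1 : (y : G) ^ i = t := Subtype.ext_iff.1 hi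
  have e2 : (y : G) ^ j = k := Subtype.ext_iff.1 hj
  have e3 : (y : G) ^ 2 ^ m = 1 := Subtype.ext_iff.1 hm
  rcases i.even_or_odd with ⟨a, rfl⟩ | ho
  · exact absurd (by rw [← pow_add, e1]) (hn _ (pow_mem (le y.2) a))
  have e4 : (y : G) ^ 2 = 1 := StdL.eq_one_of_odd_two (k := m)
    (StdL.odd_of_pow ho (by rw [pow_right_comm, e1, sq, h.tt])) (by rw [pow_right_comm, e3, one_pow])
  obtain ⟨a, rfl⟩ := ho
  rw [pow_succ, pow_mul, e4, one_pow, one_mul] at e1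
  rcases j.even_or_odd' with ⟨b, rfl | rfl⟩
  · exact Or.inl (e2.symm.trans (by rw [pow_mul, e4, one_pow]))
  · exact Or.inr (e2.symm.trans (by rw [pow_succ, pow_mul, e4, one_pow, one_mul, e1]))

theorem Std.exists_dbl {t : G} (h : Std T x t) (hn : Nsq D x t) (ht : Trl T x t) :
    ∃ O : Subgroup G, Dbl T x t (HH T x) (NN T x) O ∧ O ≤ K0 D x t ∧
      ∀ k ∈ K0 D x t, k ∈ O ∨ k * t ∈ O := by
  have h0 := h.st.toIsSt0
  have H := h.sl
  have tG : ∀ g ∈ Gs D x, Commute t g := fun g hg =>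
    comm_XS (fun r hr a => h.tx r (T.lt_iff.1 hr) a) hg
  have tK : t ∈ K0 D x t := ⟨mem_centralizer_singleton_iff.2 rfl, fun g hg => (tG g hg).symm.eq⟩
  obtain ⟨O', o1, o2⟩ := StdL.exists_odd_sub (A := K0 D x t) fun P hP => by
    have := h.cyc _ ((map_subtype_le P).trans inf_le_right) (hP.map _)
    exact (P.equivMapOfInjective _ (K0 D x t).subtype_injective).isCyclic.2 this
  obtain ⟨O, OK, odd, dec⟩ : ∃ O ≤ K0 D x t, (∀ o ∈ O, Odd (orderOf o)) ∧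
      ∀ k ∈ K0 D x t, k ∈ O ∨ k * t ∈ O := by
    have h3 : ∀ k ∈ K0 D x t, ∀ m, Odd m → k ^ m = 1 → k ∈ O'.map (K0 D x t).subtype :=
      fun k hk m hm e => ⟨⟨k, hk⟩, o2 _ (StdL.odd_of_pow hm (Subtype.ext e)), rfl⟩
    refine ⟨O'.map (K0 D x t).subtype, map_subtype_le O', fun o ho =>
      Odd.of_dvd_nat (by rwa [card_subtype]) (orderOf_dvd_natCard _ ho), fun k hk => ?_⟩
    obtain ⟨n, m, hm, e⟩ := StdL.exists_two_odd k
    refine (two_K0 h hn (pow_mem hk m) e).imp (h3 k hk m hm) fun e => h3 _ (mul_mem hk tK) m hm ?_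
    obtain ⟨i, rfl⟩ := hm
    rw [Commute.mul_pow (mem_centralizer_singleton_iff.1 hk.1), e, pow_succ, pow_mul, pow_two, h.tt,
      one_pow, one_mul, h.tt]
  have Ot : ∀ o ∈ O, Commute t o := fun o ho => (mem_centralizer_singleton_iff.1 (OK ho).1).symm
  have nrm : ∀ {g}, Commute t g → g ∈ normalizer (Gs D x : Set G) := fun hg =>
    h.nrm (mem_centralizer_singleton_iff.2 hg.symm.eq)
  have fin : ∀ {l k : G}, l ∈ Gs D x → k ∈ centralizer (Gs D x : Set G) → Commute t (l * k) →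
      ∃ o ∈ O, l * k = l * o ∨ l * k = l * o * t := fun {l k} hl hk hc => by
    refine (dec k ⟨mem_centralizer_singleton_iff.2 ?_, hk⟩).elim (fun ho => ⟨k, ho, Or.inl rfl⟩)
      fun ho => ⟨_, ho, Or.inr (by rw [mul_assoc, mul_assoc, h.tt, mul_one])⟩
    simpa using ((tG l hl).inv_right.mul_right hc).symm.eq
  have tn : t ∉ Gs D x ⊔ O := fun hm => by
    obtain ⟨l, hl, o, ho, e⟩ := (mem_sup_iff_of_le_normalizer
      ((OK.trans inf_le_right).trans (centralizer_le_normalizer _))).1 hm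
    have c : l ∈ centralizer (Gs D x : Set G) := by
      rw [← mul_inv_eq_iff_eq_mul.2 e]
      exact mul_mem tK.2 (inv_mem (OK ho).2)
    have lB := h.toLie.normalizer_Us hl (centralizer_le_normalizer _ fun u hu => c u (Us_le_Gs hu))
    have lH := (h.nd.mem_Hs_of_conj_mem_Bs h.st (g := l) fun a ha => by
      rwa [c a ha, mul_inv_cancel_right]).1
    have := ((h.oddH l lH).mul (odd o ho)).of_dvd_nat
      (cen (OK ho).2 hl).symm.orderOf_mul_dvd_mul_orderOf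
    exact h.t1 (StdL.eq_one_of_odd_two (k := 1) (e ▸ this) (by rw [pow_one, sq, h.tt]))
  refine ⟨O, ⟨H, h.st, h.nd, h.tt, fun r _ m hm => tG m (HH_le r hm),
    fun r hr m hm a => comm_XS (fun s hs b => H.com h0 hr hs.1 hs.2 a b) hm, fun _ _ => le_rfl, odd, Ot,
    fun r _ m hm o ho => cen (OK ho).2 (HH_le r hm),
    fun g _ w hw r hr m hm => hw.conj_mem_XS (fun _ hs => hs.1) (fun s hs =>
      And.intro (T.act_lt w hs.1) (by rw [T.pairing_act w hr hs.1]; exact hs.2)) hm,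
    fun c d k _ => le_inf (XS_mono fun _ hs => ⟨hs.1, hs.2.1⟩) (XS_mono fun _ hs => ⟨hs.1, hs.2.2⟩),
    fun c d k e a => ⟨mem_XS (And.intro e.hr (And.intro (by rw [T.pairing_self c e.hr]; omega)
      (by rw [H.sm_kr e]; omega))) a, mem_XS (And.intro e.hk (And.intro (by rw [H.sm_rk e]; omega)
      (by rw [T.pairing_self k e.hk]; omega))) a⟩,
    fun c d k e m hm => ?_, tn, fun g hg hc => ?_, fun r hr g h1 h2 => ?_, fun c d k e g h1 h2 => ?_,
    fun r hr s hs p g h1 h2 => ?_, fun r s k e g h1 m hm => comm_XS (fun ρ hρ a =>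
      ext_comm H h.ef h0 e.hr e.hs hρ.1 (Or.inr (H.sm_rs e)) h1 (pair' H e hρ.1 ▸ hρ.2) a) hm,
    fun r hr a => ?_⟩, OK, dec⟩
  · have i : (x d 1)⁻¹ = x d 1 := inv_eq_of_mul_eq_one_right (x_sq h0 e.hs 1)
    nth_rewrite 2 [← i]
    refine conj_mem_of_XS (fun s hs a => ?_) hm
    have p1 := pair' H e hs.1
    have p2 := hs.2.2
    rw [i]
    rcases H.tri_cases e.hs hs.1 with c1 | c1 | ⟨j, c1⟩
    · rw [c1, T.pairing_neg_right _ e.hs, H.sm_ks e] at p2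
      omega
    · rw [(H.com h0 e.hs hs.1 c1 1 a).eq, mul_assoc, x_sq h0 e.hs, mul_one]
      exact mem_XS hs a
    · have p3 := c1.pair c
      have p4 := c1.pair k
      have p5 := H.sm_rs c1
      rw [H.sm_rs e] at p3
      rw [H.sm_ks e] at p4
      rw [H.conj h0 c1.symm]
      exact mul_mem (mem_XS hs a) (mem_XS (And.intro c1.hk (And.intro (by omega) (by omega))) _)
  · refine (dec g ⟨mem_centralizer_singleton_iff.2 (tG g hg).symm.eq, fun a ha =>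
      (comm_XS (fun r hr => hc r (T.lt_iff.1 hr)) ha).symm.eq⟩).resolve_right fun ho => tn ?_
    simpa using mul_mem (mem_sup_left (inv_mem hg) : _ ∈ Gs D x ⊔ O) (mem_sup_right ho)
  · obtain ⟨w, hw⟩ := H.tr0 r hr _ (hi_lt T)
    obtain ⟨n, hn⟩ := AE.ex (T := T) h.st w
    obtain ⟨a, k, hk, e⟩ := h.toLie.rig0 (ae_nrm hn (nrm h1)) fun u hu => comm_XS (fun ρ hρ a =>
      ae_comm hn hρ.1 (h2 _ (mem_XS (And.intro (T.act_lt _ hρ.1)
        (by rw [pair_inv w hr hρ.1, hw]; exact hρ.2)) a))) (Us_le_HH H x hu)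
    rw [← hw, ← hn.conj r hr] at e
    obtain rfl := ae_back hn hk e
    exact ⟨a, fin (xG hr a) hk h1⟩
  · obtain ⟨a, b, z, hz, rfl⟩ := h.toLie.rig2 e (nrm h1) h2
    exact ⟨a, b, fin (mul_mem (xG e.hr a) (xG e.hk b)) hz h1⟩
  · obtain ⟨w, hw⟩ := exists_w H hr hs
    obtain ⟨n, hn⟩ := AE.ex (T := T) h.st w
    have c : ∀ ρ < 2 * T.N, 0 ≤ D.pairing (T.act w r) ρ + D.pairing (T.act w s) ρ → ∀ a,
        Commute (n * g * n⁻¹) (x ρ a) := fun ρ hρ q a => ae_comm hn hρ (ext_comm H h.ef h0 hr hs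
          (T.act_lt _ hρ) (Or.inl p) h2 (by rwa [pair_inv w hr hρ, pair_inv w hs hρ]) a)
    obtain ⟨a, k, hk, e⟩ := h.toLie.rig0 (ae_nrm hn (nrm h1)) fun u hu =>
      comm_XS (fun ρ hρ a => c ρ hρ.2 (hw ρ hρ.1 hρ.2) a) (T.Us_eq (x := x) ▸ hu)
    obtain ⟨d, d', q, hq⟩ := exists_d H h.ef (T.act_lt w hr) (T.act_lt w hs) (hi_lt T)
      (by rw [T.pairing_act w hr hs, p])
    have c1 := c _ (T.neg_lt q.hr)
      (by rw [T.pairing_neg_right _ q.hr, T.pairing_neg_right _ q.hr]; omega) 1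
    have c2 : Commute (x (hi T) a) (x (D.neg d) 1) := by
      simpa [e] using c1.mul_left (cen hk (xG (T.neg_lt q.hr) 1)).inv_left
    have c3 := H.sum h0 q.symm.sub a 1
    rw [← c2.eq, left_eq_mul, mul_one] at c3
    rw [h.nd.eq_zero_of_x_eq_one q.hs c3, h0.x_zero (T.lt_iff.2 (hi_lt T))] at e
    obtain rfl := ae_back (y := 1) hn hk (by rw [e]; group)
    simpa using fin (one_mem _) hk h1
  · obtain ⟨w, hw⟩ := H.tr0 _ (hi_lt T) r hr
    obtain ⟨n, hn⟩ := AE.ex (T := T) h.st w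
    obtain ⟨g, g1, g2⟩ := ht a
    refine ⟨n * g * n⁻¹, fun m hm => comm_XS (fun ρ hρ b => ae_comm hn hρ.1 (g1 _ (mem_XS
      (And.intro (T.act_lt _ hρ.1) (by rw [pair_inv w (hi_lt T) hρ.1, hw]; exact hρ.2)) b))) hm, ?_⟩
    calc _ = n * (g * (n⁻¹ * t * n) * g⁻¹) * n⁻¹ := by group
      _ = n * t * n⁻¹ * (n * x (hi T) a * n⁻¹) := by
        rw [mul_assoc n⁻¹, (tG n (ae_G hn)).eq, inv_mul_cancel_left, g2]; group
      _ = _ := by rw [hn.conj _ (hi_lt T), hw, ← (tG n (ae_G hn)).eq, mul_inv_cancel_right]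

end Cfsg.Agent.SLE
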