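import Mathlib
import Cfsg.Agent.SLE.Def2
import Cfsg.Agent.SLE.Rig
import Cfsg.Agent.SLE.InvA
import Cfsg.Agent.SLE.DP1
import Cfsg.Agent.PLocal.AmbSyl

/-! Leading term lemmas for arbitrary filtrations. -/

set_option autoImplicit false
set_option linter.unusedSectionVars false

namespace Cfsg.Agent.SLE

open Cfsg.Lie Cfsg.Agent.Chev Subgroup

variable {D : ChevalleyDatum} {T : RootTable D}
variable {F : Type*} [Field F] {G : Type*} [Group G] {x : ℕ → F → G}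

theorem pos_of_dom (T : RootTable D) (f : (Fin D.rank → ℤ) →+ ℤ)
    (hf : ∀ i : Fin D.rank, 0 ≤ f (T.vec (D.simple i))) {r : ℕ} (hr : r < 2 * T.N) :
    (T.N ≤ r → 0 ≤ f (T.vec r)) ∧ (0 < f (T.vec r) → T.N ≤ r) := by
  have key : ∀ r, T.N ≤ r → r < 2 * T.N → 0 ≤ f (T.vec r) := fun r h1 h2 => by
    rw [T.vec_eq_sum (T.vec r), map_sum]
    refine Finset.sum_nonneg fun i _ => ?_
    rw [map_zsmul, smul_eq_mul]
    exact mul_nonneg (T.vec_nonneg r h1 h2 i) (hf i)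
  refine ⟨fun h => key r h hr, fun h => by_contra fun h1 => ?_⟩
  have := key _ (T.N_le_neg (not_le.1 h1)) (T.neg_lt hr)
  rw [T.vec_neg r hr, map_neg] at this
  omega

/-- a dominant functional has a regular refinement -/
theorem exists_refine (T : RootTable D) (f : (Fin D.rank → ℤ) →+ ℤ)
    (hf : ∀ i : Fin D.rank, 0 ≤ f (T.vec (D.simple i))) : ∃ φ : (Fin D.rank → ℤ) →+ ℤ,
    (∀ r, T.N ≤ r → r < 2 * T.N → 0 < φ (T.vec r)) ∧ (∀ r < T.N, φ (T.vec r) < 0) ∧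
    (∀ r < 2 * T.N, ∀ s < 2 * T.N, φ (T.vec r) = φ (T.vec s) → r = s) ∧
    ∀ r < 2 * T.N, ∀ s < 2 * T.N, f (T.vec r) < f (T.vec s) → φ (T.vec r) < φ (T.vec s) := by
  have h0 := T.N_pos
  have h1 : ∀ r < 2 * T.N, T.val (T.vec 0) ≤ T.val (T.vec r) ∧
      T.val (T.vec r) ≤ T.val (T.vec (hi T)) := fun r hr => by
    constructor
    · rcases Nat.eq_zero_or_pos r with rfl | h
      · rfl
      · exact (T.val_lt h hr).le
    · by_cases h : r = hi T
      · rw [h]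
      · exact (T.val_lt (by unfold hi at h ⊢; omega) (hi_lt T)).le
  set K := T.val (T.vec (hi T)) - T.val (T.vec 0) + 1 with hK
  have hK0 : 0 < K := by have := h1 0 (by omega); omega
  have e : ∀ v, (K • f + T.val) v = K * f v + T.val v := fun v => by simp
  have h2 : ∀ r < 2 * T.N, ∀ s < 2 * T.N, f (T.vec r) < f (T.vec s) →
      (K • f + T.val) (T.vec r) < (K • f + T.val) (T.vec s) := fun r hr s hs h => by
    rw [e, e]
    have := h1 r hr
    have := h1 s hs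
    nlinarith
  have h3 : ∀ r, T.N ≤ r → r < 2 * T.N → 0 < (K • f + T.val) (T.vec r) := fun r hr hr' => by
    rw [e]
    have := (pos_of_dom T f hf hr').1 hr
    have := T.val_pos hr hr'
    positivity
  refine ⟨K • f + T.val, h3, fun r hr => ?_, fun r hr s hs h => ?_, h2⟩
  · have := h3 _ (T.N_le_neg hr) (T.neg_lt (by omega))
    rw [T.vec_neg r (by omega), map_neg] at this
    omega
  · rcases lt_trichotomy (f (T.vec r)) (f (T.vec s)) with h4 | h4 | h4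
    · exact absurd h (h2 r hr s hs h4).ne
    · rw [e, e, h4] at h
      exact T.val_inj hr hs (by omega)
    · exact absurd h (h2 s hs r hr h4).ne'

/-- strip off the root elements that lie in `K`, kill the other leading terms -/
theorem strip (h0 : IsSt0 D x) {S : Set ℕ} (hS : T.Nil S) {φ : (Fin D.rank → ℤ) →+ ℤ}
    (hφ : ∀ r ∈ S, 0 < φ (T.vec r)) (hi : ∀ r ∈ S, ∀ s ∈ S, φ (T.vec r) = φ (T.vec s) → r = s)
    {K : Subgroup G} {Ω : Set ℕ} (h1 : ∀ γ ∈ S, γ ∈ Ω → ∀ a, x γ a ∈ K)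
    (h2 : ∀ γ ∈ S, γ ∉ Ω → ∀ a, ∀ u ∈ K,
      (x γ a)⁻¹ * u ∈ XS x {r | r ∈ S ∧ φ (T.vec γ) + 1 ≤ φ (T.vec r)} → a = 0)
    {u : G} (hu : u ∈ XS x S) (hK : u ∈ K) : u ∈ XS x (S ∩ Ω) := by
  obtain ⟨m, hm⟩ := IsSt0.exists_filt_empty hS φ
  have key : ∀ n : ℕ, ∀ u ∈ XS x {r | r ∈ S ∧ (m : ℤ) - n ≤ φ (T.vec r)}, u ∈ K →
      u ∈ XS x (S ∩ Ω) := by
    intro n
    induction n with
    | zero =>
      intro u hu _
      simp only [Nat.cast_zero, sub_zero, hm, XS_empty, mem_bot] at hu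
      rw [hu]; exact one_mem _
    | succ n ih =>
      intro u hu hK
      by_cases h : ∃ γ ∈ S, φ (T.vec γ) = (m : ℤ) - (n + 1 : ℕ)
      · obtain ⟨γ, hγ, e⟩ := h
        rw [← e] at hu
        obtain ⟨a, ha⟩ := h0.exists_eq_mul_filt hS hφ hγ (fun r hr => hi r hr γ hγ) hu
        have e' : φ (T.vec γ) + 1 = m - n := by rw [e]; push_cast; ring
        by_cases hΩ : γ ∈ Ω
        · have := ih _ (e' ▸ ha) (mul_mem (inv_mem (h1 γ hγ hΩ a)) hK)
          simpa using mul_mem (mem_XS (S := S ∩ Ω) ⟨hγ, hΩ⟩ a) this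
        · obtain rfl := h2 γ hγ hΩ a u hK ha
          rw [h0.x_zero (T.lt_iff.2 (hS.lt γ hγ)), inv_one, one_mul, e'] at ha
          exact ih u ha hK
      · refine ih u (XS_mono ?_ hu) hK
        refine fun r hr => ⟨hr.1, ?_⟩
        have h3 : φ (T.vec r) ≠ (m : ℤ) - (n + 1 : ℕ) := fun e => h ⟨r, hr.1, e⟩
        have h4 := hr.2
        push_cast at h3 h4
        omega
  exact key m u (XS_mono (by exact fun r hr => ⟨hr, by simpa using (hφ r hr).le⟩) hu) hK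

/-- the leading term of a commutator with `x δ c` (`δ` need not be positive) -/
theorem lead [CharP F 2] (H : SL T) (h0 : IsSt0 D x) {S : Set ℕ} (hS : T.Nil S)
    {φ : (Fin D.rank → ℤ) →+ ℤ} (hφ : ∀ r ∈ S, 0 < φ (T.vec r)) {γ δ k : ℕ} (hγ : γ ∈ S)
    (e : Sm T γ δ k) (hδ : ∀ s ∈ S, s ≠ D.neg δ ∧ ∀ k', Sm T s δ k' → k' ∈ S) {a c : F} {u : G}
    (hu : (x γ a)⁻¹ * u ∈ XS x {r | r ∈ S ∧ φ (T.vec γ) + 1 ≤ φ (T.vec r)}) :
    (x k (a * c))⁻¹ * (u⁻¹ * (x δ c * u * (x δ c)⁻¹)) ∈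
      XS x {r | r ∈ S ∧ φ (T.vec k) + 1 ≤ φ (T.vec r)} := by
  have hk : k ∈ S := (hδ γ hγ).2 k e
  have eφ : φ (T.vec k) = φ (T.vec γ) + φ (T.vec δ) := by rw [e.eq, map_add]
  set u' := (x γ a)⁻¹ * u with hu'
  have h1 : u'⁻¹ * (x δ c * u' * (x δ c)⁻¹) ∈ XS x {r | r ∈ S ∧ φ (T.vec k) + 1 ≤ φ (T.vec r)} := by
    have := comm_mem_of_closure (h0.le_normalizer_filt hS hφ (φ (T.vec k) + 1))
      (z := (x δ c)⁻¹) (by
        rintro _ ⟨r, hr, t, rfl⟩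
        exact mem_XS hr.1 t) (by
        rintro _ ⟨r, hr, t, rfl⟩
        have hr' := hS.lt r hr.1
        rcases H.tri_cases e.hs hr' with p | p | ⟨k', p⟩
        · exact absurd p (hδ r hr.1).1
        · have := (H.com h0 e.hs hr' p c t).inv_right.eq
          rw [inv_inv, this]
          simp
        · have h2 := H.sum h0 p.symm t c
          have h3 : (x δ c)⁻¹⁻¹ * (x r t)⁻¹ * (x δ c)⁻¹ * x r t = x k' (t * c) := by
            rw [inv_inv, h0.x_inv (T.lt_iff.2 hr'), h0.x_inv (T.lt_iff.2 e.hs), h2]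
            simp only [mul_assoc,
              rp (H.com h0 p.hk p.hr (by rw [H.sm_kr p]; omega) _ _).eq,
              rp (H.com h0 p.hk p.hs (by rw [H.sm_ks p]; omega) _ _).eq,
              rp (h0.x_one_sq (T.lt_iff.2 hr') _), rp (h0.x_one_sq (T.lt_iff.2 e.hs) _), one_mul]
          rw [h3]
          refine mem_XS (And.intro ((hδ r hr.1).2 k' p.symm) ?_) _
          have h4 := hr.2
          rw [p.eq, map_add]
          omega) (g := u') hu
    simpa [mul_assoc] using inv_mem this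
  have h2 := h0.comm_mem_filt hS hφ hk le_rfl (a * c) (XS_mono (fun r hr => hr.1) hu)
  have h3 : x δ c * x γ a * (x δ c)⁻¹ = x γ a * x k (a * c) := by
    rw [h0.x_inv (T.lt_iff.2 e.hs), H.conj h0 e]
  convert mul_mem h2 h1 using 1
  calc _ = (x k (a * c))⁻¹ * (u'⁻¹ * (x γ a)⁻¹ * (x δ c * x γ a * (x δ c)⁻¹) *
        (x δ c * u' * (x δ c)⁻¹)) := by rw [hu']; group
    _ = _ := by rw [h3]; group

theorem lead_zero [CharP F 2] (H : SL T) (h0 : IsSt0 D x) (hn : IsND x T) {S : Set ℕ}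
    (hS : T.Nil S) {φ : (Fin D.rank → ℤ) →+ ℤ} (hφ : ∀ r ∈ S, 0 < φ (T.vec r)) {γ δ k : ℕ}
    (hγ : γ ∈ S) (e : Sm T γ δ k) (hδ : ∀ s ∈ S, s ≠ D.neg δ ∧ ∀ k', Sm T s δ k' → k' ∈ S)
    {a c : F} {u : G} (hu : (x γ a)⁻¹ * u ∈ XS x {r | r ∈ S ∧ φ (T.vec γ) + 1 ≤ φ (T.vec r)})
    (hc : c ≠ 0) (h : u⁻¹ * (x δ c * u * (x δ c)⁻¹) ∈
      XS x {r | r < 2 * T.N ∧ φ (T.vec k) < φ (T.vec r)}) : a = 0 := by
  have h1 := lead H h0 hS hφ hγ e hδ (c := c) hu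
  have h2 : (x k (a * c))⁻¹ ∈ XS x {r | r < 2 * T.N ∧ φ (T.vec k) < φ (T.vec r)} := by
    simpa only [mul_inv_cancel_right] using mul_mem (XS_mono (S' := {r | r < 2 * T.N ∧ φ (T.vec k) < φ (T.vec r)})
      (fun r hr => ⟨hS.lt r hr.1, by have := hr.2; omega⟩) h1) (inv_mem h)
  exact (mul_eq_zero.1 (hn.nd φ k e.hk (hφ k ((hδ γ hγ).2 k e)) _
    (inv_mem_iff.1 h2))).resolve_right hc

/-- If `u p u'` (`p` permuting the root groups) is unipotent on the top `{m ≤ φ}` of a regular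
filtration, then `p` fixes these roots. -/
theorem gen (h0 : IsSt0 D x) (hn : IsND x T) {φ : (Fin D.rank → ℤ) →+ ℤ}
    (hφ : ∀ r, T.N ≤ r → r < 2 * T.N → 0 < φ (T.vec r)) (hφ' : ∀ r < T.N, φ (T.vec r) < 0)
    (hi : ∀ r < 2 * T.N, ∀ s < 2 * T.N, φ (T.vec r) = φ (T.vec s) → r = s) {m : ℤ} (hm : 0 < m)
    {u p u' : G} (hu : u ∈ Us D x) (hu' : u' ∈ Us D x) {ρ : ℕ → ℕ} {κ : ℕ → F → F}
    (h1 : ∀ r < 2 * T.N, ρ r < 2 * T.N) (h2 : ∀ r < 2 * T.N, ∀ s < 2 * T.N, ρ r = ρ s → r = s)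
    (h3 : ∀ r < 2 * T.N, ∀ a, p * x r a * p⁻¹ = x (ρ r) (κ r a))
    (h4 : ∀ r < 2 * T.N, m ≤ φ (T.vec r) → ∃ c, c ≠ 0 ∧ (x r c)⁻¹ *
      (u * p * u' * x r c * (u * p * u')⁻¹) ∈ XS x {s | s < 2 * T.N ∧ φ (T.vec r) < φ (T.vec s)})
    {r : ℕ} (hr : r < 2 * T.N) (hmr : m ≤ φ (T.vec r)) : ρ r = r ∧ ∀ c, (x r c)⁻¹ *
      (u * p * u' * x r c * (u * p * u')⁻¹) ∈ XS x {s | s < 2 * T.N ∧ φ (T.vec r) < φ (T.vec s)} →
        κ r c = c := by
  have hpos : ∀ s < 2 * T.N, 0 < φ (T.vec s) → T.N ≤ s := fun s _ h => by_contra fun h1 => by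
    have := hφ' s (not_le.1 h1); omega
  have hP : ∀ r ∈ Pos T, 0 < φ (T.vec r) := fun r hr => hφ r hr.1 hr.2
  have eq : ∀ n : ℤ, 0 ≤ n → {s | s < 2 * T.N ∧ n < φ (T.vec s)} =
      {s | s ∈ Pos T ∧ n + 1 ≤ φ (T.vec s)} := fun n hn => Set.ext fun s =>
    ⟨fun h => ⟨⟨hpos s h.1 (by have := h.2; omega), h.1⟩, h.2⟩, fun h => ⟨h.1.2, h.2⟩⟩
  have key : ∀ r < 2 * T.N, m ≤ φ (T.vec r) →
      (∀ s < 2 * T.N, φ (T.vec r) < φ (T.vec s) → ρ s = s) → ∀ c, (x r c)⁻¹ *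
      (u * p * u' * x r c * (u * p * u')⁻¹) ∈ XS x {s | s < 2 * T.N ∧ φ (T.vec r) < φ (T.vec s)} →
      (x r c)⁻¹ * x (ρ r) (κ r c) ∈ XS x {s | s < 2 * T.N ∧ φ (T.vec r) < φ (T.vec s)} := by
    intro r hr hmr ih c hc
    have hr' : r ∈ Pos T := ⟨hpos r hr (by omega), hr⟩
    have a1 := h0.comm_mem_filt (nil_Pos T) hP hr' le_rfl c (Us_eq_Pos T x ▸ hu)
    have a2 := h0.comm_mem_filt (nil_Pos T) hP hr' le_rfl c (Us_eq_Pos T x ▸ inv_mem hu')
    have a3 := h0.le_normalizer_filt (nil_Pos T) hP (φ (T.vec r) + 1) (Us_eq_Pos T x ▸ hu)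
    rw [← eq _ (by omega)] at a1 a2 a3
    have a4 := conj_mem_of_XS (a := p) (fun s hs a => by
      rw [h3 s hs.1, ih s hs.1 hs.2]; exact mem_XS hs _) a2
    have a5 := conj_mem_of_mem_normalizer' a3 hc
    convert mul_mem (mul_mem a1 a5) (inv_mem a4) using 1
    rw [← h3 r hr]; group
  have fix : ∀ n : ℕ, ∀ r < 2 * T.N, m ≤ φ (T.vec r) →
      {s | s < 2 * T.N ∧ φ (T.vec r) < φ (T.vec s)}.ncard ≤ n → ρ r = r := by
    intro n
    induction n using Nat.strong_induction_on with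
    | _ n ihn =>
      intro r hr hmr hn'
      have fin : ∀ r, {s | s < 2 * T.N ∧ φ (T.vec r) < φ (T.vec s)}.Finite := fun r =>
        (Set.finite_lt_nat _).subset fun s hs => hs.1
      have ih : ∀ s < 2 * T.N, φ (T.vec r) < φ (T.vec s) → ρ s = s := fun s hs h => by
        refine ihn _ (lt_of_lt_of_le (Set.ncard_lt_ncard ?_ (fin r)) hn') s hs (by omega) le_rfl
        exact ⟨fun a ha => ⟨ha.1, h.trans ha.2⟩, fun h' => lt_irrefl _ (h' (And.intro hs h)).2⟩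
      obtain ⟨c, hc0, hc⟩ := h4 r hr hmr
      have b1 := key r hr hmr ih c hc
      have b2 : κ r c ≠ 0 := fun e => hc0 (hn.eq_zero_of_x_eq_one hr (by
        have := h3 r hr c
        rw [e, h0.x_zero (T.lt_iff.2 (h1 r hr)), mul_inv_eq_one, mul_eq_left] at this
        exact this))
      rcases lt_trichotomy (φ (T.vec r)) (φ (T.vec (ρ r))) with h | h | h
      · exact absurd (h2 _ (h1 r hr) r hr (ih _ (h1 r hr) h)) fun e => by rw [e] at h; omega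
      · exact (hi r hr _ (h1 r hr) h).symm
      · have b3 : ∀ n : ℤ, n < φ (T.vec r) →
            x (ρ r) (κ r c) ∈ XS x {s | s < 2 * T.N ∧ n < φ (T.vec s)} := fun n hn => by
          simpa using mul_mem (mem_XS (S := {s | s < 2 * T.N ∧ n < φ (T.vec s)}) ⟨hr, hn⟩ c)
            (XS_mono (by exact fun s hs => ⟨hs.1, hn.trans hs.2⟩) b1)
        by_cases hp : T.N ≤ ρ r
        · exact absurd (hn.nd φ _ (h1 r hr) (hφ _ hp (h1 r hr)) _ (b3 _ h)) b2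
        · refine absurd (hn.eq_zero_of_x_eq_one (h1 r hr) (hn.eq_one_of_mem_B_V (Us_le_Bs ?_)
            (T.mem_Vs' (not_le.1 hp) _))) b2
          rw [Us_eq_Pos T]
          exact XS_mono (by exact fun s hs => ⟨hpos s hs.1 hs.2, hs.1⟩) (b3 0 (by omega))
  have e := fix _ r hr hmr le_rfl
  refine ⟨e, fun c hc => ?_⟩
  have b1 := key r hr hmr (fun s hs h => fix _ s hs (by omega) le_rfl) c hc
  rw [e, ← h0.x_neg (T.lt_iff.2 hr), h0.add r (T.lt_iff.2 hr)] at b1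
  have := hn.nd φ r hr (by omega) _ b1
  linear_combination this

/-- `w` fixing a dominant functional is realized in the corresponding Levi subgroup -/
theorem ae_stab [CharP F 2] (h : IsSt D x) (f : (Fin D.rank → ℤ) →ₗ[ℤ] ℤ)
    (hf : ∀ i : Fin D.rank, 0 ≤ f (T.vec (D.simple i))) {w : T.W}
    (hw : ∀ r < 2 * T.N, f (T.vec (T.act w r)) = f (T.vec r)) :
    ∃ n ∈ XS x {r | r < 2 * T.N ∧ f (T.vec r) = 0}, AE T x n w := by
  exact AE.exists_mem h (fun i hi => nn_mem (fun a => mem_XS (And.intro (T.simple_lt i) hi) a)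
    (fun a => mem_XS (And.intro (T.neg_lt (T.simple_lt i)) (by
      rw [T.vec_neg _ (T.simple_lt i), map_neg, show f (T.vec (D.simple i)) = 0 from hi]; rfl)) a) 1)
    (T.mem_coxParabolic_of_fix f hf fun i => hw _ (T.simple_lt i))

/-- an element of `U` kept in `U` by the reflections in `Γ` has no `Γ`-component -/
theorem core (h : IsSt D x) (hn : IsND x T) {Γ : Set ℕ} {u : G} (hu : u ∈ Us D x)
    (hΓ : ∀ γ ∈ Γ, T.N ≤ γ → γ < 2 * T.N → nn D x γ 1 * u * (nn D x γ 1)⁻¹ ∈ Us D x) :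
    u ∈ XS x {r | T.N ≤ r ∧ r < 2 * T.N ∧ r ∉ Γ} := by
  obtain ⟨l, hl, hl'⟩ := IsSt0.exists_list (nil_Pos T).finite
  obtain ⟨t, rfl⟩ := h.toIsSt0.exists_oprod (nil_Pos T) hl hl' (Us_eq_Pos T x ▸ hu)
  refine oprod_mem fun r hr => ?_
  have hr' := (hl' r).1 hr
  by_cases hΓ' : r ∈ Γ
  · have : t r = 0 := by_contra fun h0 => by
      have := hn.act_mem_of_conj_mem h (h.acts_rw T hr'.2 one_ne_zero) hl (fun r hr => (hl' r).1 hr)
        (by simpa only [hl', Set.ofPred_mem_eq] using (nil_Pos T).closed) (S := Pos T)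
        (fun _ h => h) (nil_Pos T).closed (Us_eq_Pos T x ▸ hΓ r hΓ' hr'.1 hr'.2) hr h0
      rw [T.act_rw_self hr'.2] at this
      exact absurd this.1 (not_le.2 (T.neg_lt_N hr'.1 hr'.2))
    rw [this, h.toIsSt0.x_zero (T.lt_iff.2 hr'.2)]
    exact one_mem _
  · exact mem_XS (And.intro hr'.1 ⟨hr'.2, hΓ'⟩) _

/-- a Weyl group element fixing all roots `r` with `<θ,r> = 1` is trivial; more precisely the
simple roots are differences of such roots -/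
theorem simple_sub (H : SL T) (E : EF T) (i : Fin D.rank) : D.pairing (hi T) (D.simple i) = 1 ∨
    ∃ r k, D.pairing (hi T) r = 1 ∧ D.pairing (hi T) k = 1 ∧ Sm T r (D.simple i) k := by
  obtain ⟨j, h1, h2⟩ := E.alpha
  by_cases e : i = j
  · exact Or.inl (e ▸ h1)
  have h3 := h2 i e
  obtain ⟨d, hd, p1, p2⟩ := E.g2 _ (hi_lt T) _ (T.simple_lt i) h3
  obtain ⟨r, hr⟩ := H.exists_sub (T.simple_lt i) hd (by rw [H.symm _ (T.simple_lt i) d hd, p2])
  have h4 : D.pairing (hi T) d = 1 := by rw [H.symm _ (hi_lt T) d hd, p1]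
  have h5 := hr.pair (hi T)
  exact Or.inr ⟨r, d, by omega, h4, hr.symm⟩

variable [Finite F] [CharP F 2] [Finite G]

theorem Lie.two_Us (h : Lie T x) : IsPGroup 2 (Us D x) := by
  exact h.nd.isPGroup_Us h.st 2

theorem Lie.syl (h : Lie T x) : PLocal.Amb.IsSyl 2 (Us D x) (Gs D x) := by
  obtain ⟨S, hS⟩ := PLocal.Amb.exists_isSyl 2 (Gs D x)
  obtain ⟨l, -, hl⟩ := h.exists_conj_le hS.le hS.pgrp
  refine hS.of_card_ge h.two_Us Us_le_Gs (Nat.card_le_card_of_injective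
    (fun a : S => (⟨l * a * l⁻¹, hl a a.2⟩ : Us D x)) fun a b e => ?_)
  exact Subtype.ext (mul_left_cancel (mul_right_cancel (Subtype.ext_iff.1 e)))

theorem Lie.max2 (h : Lie T x) {K : Subgroup G} (h1 : K ≤ Gs D x) (h2 : IsPGroup 2 K)
    (h3 : Us D x ≤ normalizer (K : Set G)) : K ≤ Us D x := by
  exact h.syl.le_of_le_normalizer h2 h1 h3

theorem Lie.bruhat (h : Lie T x) {g : G} (hg : g ∈ Gs D x) : ∃ u ∈ Us D x, ∃ n ∈ Ns D x,
    ∃ w, Acts x T n w ∧ ∃ u' ∈ Us D x, g = u * n * u' := by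
  obtain ⟨b, hb, n, hn, w, hw, u', hu', rfl⟩ := h.st.exists_bruhat T hg
  obtain ⟨u, hu, k, hk, rfl⟩ := (h.st.mem_Bs_iff T).1 hb
  exact ⟨u, hu, k * n, mul_mem (Hs_le_Ns hk) hn, w,
    by simpa using (h.st.acts_of_mem_Hs T hk).mul hw, u', T.XS_invSet_le_Us w hu', by group⟩

theorem Lie.bruhat_nf (h : Lie T x) {g : G} (hg : g ∈ normalizer (Gs D x : Set G)) :
    ∃ u ∈ Us D x, ∃ n ∈ Ns D x, ∃ w, Acts x T n w ∧ ∃ d π c σ, Nf T x d π c σ ∧
      ∃ u' ∈ Us D x, g = u * (n * d) * u' := by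
  obtain ⟨l, hl, d, π, c, σ, rfl, hd, -⟩ := h.exists_dec hg
  obtain ⟨u, hu, n, hn, w, hw, u', hu', rfl⟩ := h.bruhat hl
  exact ⟨u, hu, n, hn, w, hw, d, π, c, σ, hd, d⁻¹ * u' * d,
    conj_mem_of_mem_normalizer' (Au.nf_Us hd) hu', by group⟩

theorem Lie.center_le (h : Lie T x) {g : G} (h1 : g ∈ Gs D x)
    (h2 : g ∈ centralizer (Gs D x : Set G)) : g ∈ Hs D x := by
  have c : ∀ a ∈ Gs D x, a * g = g * a := fun a ha => mem_centralizer_iff.1 h2 a ha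
  have lB := h.normalizer_Us h1 (centralizer_le_normalizer _ fun u hu => c u (Us_le_Gs hu))
  exact (h.nd.mem_Hs_of_conj_mem_Bs h.st (g := g) fun a ha => by
    rwa [c a ha, mul_inv_cancel_right]).1

theorem Lie.invol_dec' (h : Lie T x) {s : G} (hs : s ∈ normalizer (Gs D x : Set G))
    (hU : s ∈ normalizer (Us D x : Set G)) (h2 : s * s = 1) :
    ∃ u ∈ Us D x, ∃ d π c σ, Nf T x d π c σ ∧ d * d = 1 ∧ s = u * d := by
  obtain ⟨u, -, d, π, c, σ, rfl, hd, hu⟩ := h.exists_dec hs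
  have hu := hu hU
  have h3 : d * d ∈ Us D x := by
    rw [show d * d = (u * (d * u * d⁻¹))⁻¹ * (u * d * (u * d)) by group, h2, mul_one]
    exact inv_mem (mul_mem hu (conj_mem_of_mem_normalizer (Au.nf_Us hd) hu))
  exact ⟨u, hu, d, π, c, σ, hd,
    h.nd.eq_one_of_mem_U_H h3 ((hd.mul' h hd).of_mem h (Us_le_Gs h3)).1, rfl⟩

/-- an involution of `N(L)` is conjugate to `u d` -/
theorem Lie.invol_dec (h : Lie T x) {s : G} (hs : s ∈ normalizer (Gs D x : Set G))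
    (h2 : s * s = 1) : ∃ l ∈ Gs D x, ∃ u ∈ Us D x, ∃ d π c σ, Nf T x d π c σ ∧ d * d = 1 ∧
      l * s * l⁻¹ = u * d := by
  have hp : IsPGroup 2 (zpowers s) := PLocal.Amb.isPGroup_zpowers ⟨1, by rw [pow_one, sq, h2]⟩
  obtain ⟨S, hS, h3⟩ := PLocal.Amb.exists_isSyl_ge hp
    (le_sup_right : zpowers s ≤ Gs D x ⊔ zpowers s)
  have hN : Gs D x ⊔ zpowers s ≤ normalizer (Gs D x : Set G) :=
    sup_le le_normalizer (zpowers_le.2 hs)
  obtain ⟨l, hl, e⟩ := h.syl.exists_cj_eq (hS.inf_of_le le_sup_left hN)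
  have h4 : l * s * l⁻¹ ∈ normalizer (Us D x : Set G) := by
    have h5 : s ∈ normalizer ((S ⊓ Gs D x : Subgroup G) : Set G) :=
      inf_normalizer_le_normalizer_inf ⟨le_normalizer (h3 (mem_zpowers s)), hs⟩
    rw [← e]
    exact le_normalizer_map _ ⟨s, h5, rfl⟩
  obtain ⟨u, hu, d, π, c, σ, h5, h6, h7⟩ := h.invol_dec'
    (mul_mem (mul_mem (le_normalizer hl) hs) (inv_mem (le_normalizer hl))) h4
    (by rw [show l * s * l⁻¹ * (l * s * l⁻¹) = l * (s * s) * l⁻¹ by group, h2]; group)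
  exact ⟨l, hl, u, hu, d, π, c, σ, h5, h6, h7⟩

/-- `t` is the only involution of `K0` -/
theorem Std.invol_K0 {t : G} (h : Std T x t) {k : G} (hk : k ∈ K0 D x t) (h2 : k * k = 1) :
    k = 1 ∨ k = t := by
  have tK : t ∈ K0 D x t := ⟨mem_centralizer_singleton_iff.2 rfl, fun g hg =>
    (Rg.comm_XS (fun r hr a => h.tx r (T.lt_iff.1 hr) a) hg).symm.eq⟩
  have le : zpowers k ⊔ zpowers t ≤ K0 D x t := sup_le (zpowers_le.2 hk) (zpowers_le.2 tK)
  have p : IsPGroup 2 ↥(zpowers k ⊔ zpowers t) := PLocal.Amb.isPGroup_sup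
    (PLocal.Amb.isPGroup_zpowers ⟨1, by rw [pow_one, sq, h2]⟩)
    (PLocal.Amb.isPGroup_zpowers ⟨1, by rw [pow_one, sq, h.tt]⟩)
    (zpowers_le.2 (centralizer_le_normalizer _ (by
      rintro _ ⟨i, rfl⟩
      exact ((show Commute k t from mem_centralizer_singleton_iff.1 hk.1).zpow_right i).symm.eq)))
  have := h.cyc _ (le.trans inf_le_right) p
  classical
  have := Fintype.ofFinite ↥(zpowers k ⊔ zpowers t)
  by_contra hc
  push Not at hc
  have h3 := IsCyclic.card_pow_eq_one_le (α := ↥(zpowers k ⊔ zpowers t)) (n := 2) two_pos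
  have h4 : ({1, ⟨k, mem_sup_left (mem_zpowers k)⟩, ⟨t, mem_sup_right (mem_zpowers t)⟩} :
      Finset ↥(zpowers k ⊔ zpowers t)) ⊆ Finset.univ.filter fun a => a ^ 2 = 1 := by
    intro a ha
    simp only [Finset.mem_insert, Finset.mem_singleton] at ha
    rcases ha with rfl | rfl | rfl <;> simp [sq, Subtype.ext_iff, h2, h.tt]
  have h5 := (Finset.card_le_card h4).trans h3
  rw [Finset.card_eq_three.2 ⟨_, _, _, by simp [Subtype.ext_iff, hc.1.symm],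
    by simp [Subtype.ext_iff, h.t1.symm], by simp [Subtype.ext_iff, hc.2], rfl⟩] at h5
  omega

end Cfsg.Agent.SLE
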