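import Mathlib
import Cfsg.Agent.SLE.DP1

/-! Doubling of the root groups, part 2: the doubled root groups are elementary abelian and
satisfy the commutator relations. -/

set_option autoImplicit false
set_option linter.unusedSectionVars false
set_option linter.unusedSimpArgs false

namespace Cfsg.Agent.SLE

open Cfsg.Lie Cfsg.Agent.Chev Subgroup

variable {D : ChevalleyDatum} {T : RootTable D}
variable {F : Type*} [Field F] {G : Type*} [Group G]

/-- an element of the doubled root group translating `t` by `x r s` -/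
structure Zh (x : ℕ → F → G) (t : G) (M : ℕ → Subgroup G) (O : Subgroup G) (r : ℕ) (g : G)
    (s : F) : Prop extends Bo x t M O r g s where
  sq : g * g = 1
  z0 : s = 0 → ∃ a, g = x r a

theorem Zh.inv_eq {x : ℕ → F → G} {t : G} {M : ℕ → Subgroup G} {O : Subgroup G} {r : ℕ} {g : G}
    {s : F} (z : Zh x t M O r g s) : g⁻¹ = g := inv_eq_of_mul_eq_one_right z.sq

namespace Dbl

variable [CharP F 2] {x : ℕ → F → G} {t : G} {M : ℕ → Subgroup G} {N : ℕ → ℕ → Subgroup G}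
  {O : Subgroup G} (h : Dbl T x t M N O)
include h

section

variable {c k : ℕ} (hc : c < 2 * T.N) (hk : k < 2 * T.N) (p : D.pairing c k = 1)
  {g y : G} {s j j' : F}
include hc hk p

omit p in
theorem star_symm (e : g * y = y * g * (x c j * x k j')) : y * g = g * y * (x k j' * x c j) := by
  rw [e]
  simp only [mul_assoc, rp (h.xsq hk j'), h.xsq hc j, one_mul, mul_one]

theorem star_left {g0 : G} {j0 : F} (b' : Pt x t M O c y s j') (b0 : Pt x t M O k g0 s j0)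
    (b : Pt x t M O k g s j) (e : g0 * y = y * g0 * (x c j0 * x k j')) :
    g * y = y * g * (x c j * x k j') := by
  have h1 := fun a => b'.cM _ (h.xM' hk hc (by omega) a)
  have h2 := fun a a' => h.xx hc hk (by omega) a a'
  obtain ⟨a, ⟨rfl, rfl⟩ | ⟨rfl, rfl⟩⟩ := h.pt_uniq hk b0 b
  · simp only [mul_assoc, rp (h1 a).symm.eq, rp e, rp (h2 _ _).symm.eq, rp (h.xadd hk _ _),
      add_comm a]
  · simp only [mul_assoc, rp (h1 a).symm.eq, rp e, rp (h2 _ _).symm.eq, rp (h.xadd hk _ _),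
      add_comm a, rp (h.bt_ts hc b'.toBt), rp (h.tx hk _).eq, rp (h.tx hc _).eq,
      rp (h.xadd hc _ _)]

theorem star (b : Pt x t M O k g s j) (b' : Pt x t M O c y s j') :
    g * y = y * g * (x c j * x k j') := by
  have p' : D.pairing k c = 1 := by rw [h.sl.symm k hk c hc, p]
  obtain ⟨e, he, p1, p2⟩ := h.sl.exists_tri hc hk p
  obtain ⟨d, e1⟩ := h.sl.exists_sub he hk p2
  obtain ⟨d', e2⟩ := h.sl.exists_sub he hc p1
  obtain ⟨z, bz⟩ := h.exists_bo he s
  obtain ⟨g0, j0, b0, f1⟩ := h.phi_pt e1 bz.toBt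
  obtain ⟨y0, j1, b1, f2⟩ := h.phi_pt e2 bz.toBt
  have q1 : D.pairing k d' = 0 := by
    have := e2.pair k; rw [p', h.sl.symm k hk e he, p2] at this; omega
  have q2 : D.pairing c d = 0 := by
    have := e1.pair c; rw [p, h.sl.symm c hc e he, p1] at this; omega
  have q3 : D.pairing d d' = 1 := by
    have := e2.pair d; rw [h.sl.symm d e1.hs c hc, q2, h.sl.sm_sr e1] at this; omega
  have u2 := h.xsq e1.hs (1 : F)
  have v2 := h.xsq e2.hs (1 : F)
  have g1 : x d 1 * z = z * (g0 * x e j0) * x d 1 := by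
    rw [← f1]; simp only [mul_assoc, u2, mul_one, mul_inv_cancel_left]
  have g2 : x d' 1 * z = z * (y0 * x e j1) * x d' 1 := by
    rw [← f2]; simp only [mul_assoc, v2, mul_one, mul_inv_cancel_left]
  have g3 : x d 1 * x e j1 = x e j1 * x k j1 * x d 1 := by
    have := h.xconj e1 j1 1
    rw [mul_one] at this
    rw [← this]; simp only [mul_assoc, u2, mul_one]
  have g4 : x d' 1 * x e j0 = x e j0 * x c j0 * x d' 1 := by
    have := h.xconj e2 j0 1
    rw [mul_one] at this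
    rw [← this]; simp only [mul_assoc, v2, mul_one]
  have g5 : x d 1 * (x d' 1 * z) = x d' 1 * (x d 1 * z) := by
    rw [← mul_assoc, (h.xx e1.hs e2.hs (by omega) 1 1).eq, mul_assoc]
  have g6 := (b0.cM _ (h.xM' e2.hs hk (by omega) 1)).symm.eq
  have g7 := (b1.cM _ (h.xM' e1.hs hc (by omega) 1)).symm.eq
  have g8 := fun a => (b0.cM _ (h.ck e1 a)).symm.eq
  have g9 := fun a => (b1.cM _ (h.ck e2 a)).symm.eq
  rw [g2, g1] at g5
  simp only [mul_assoc, rp g1, rp g2, rp g3, rp g4, rp g6, rp g7, rp (g8 _), rp (g9 _),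
    rp (h.xx e1.hs e2.hs (by omega) 1 1).symm.eq, rp (h.xadd he _ _), add_comm j1,
    mul_right_inj] at g5
  have g10 : g0 * y0 = y0 * g0 * (x c j0 * x k j1) := by
    have g11 := h.xx hk he (by rw [h.sl.sm_kr e1]; omega) j1 (j0 + j1)
    have g12 := h.xx hc he (by rw [h.sl.sm_kr e2]; omega) j0 (j0 + j1)
    simp only [rp g11.symm.eq, rp g12.symm.eq, mul_assoc] at g5
    simp only [← mul_assoc, mul_left_inj] at g5
    rw [← mul_assoc, ← g5, mul_assoc, h.xsq hk, mul_one]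
  exact h.star_left hc hk p b' b0 b (h.star_symm hk hc
    (h.star_left hk hc p' b0 b1 b' (h.star_symm hc hk g10)))

end

theorem phi_bo {c d k : ℕ} (e : Sm T c d k) {y : G} {s : F} (b : Bo x t M O c y s) :
    Pt x t M O k (y⁻¹ * x d 1 * y * x d 1) s 0 := by
  have u2 := h.xsq e.hs (1 : F)
  have key : ∀ y j', Pt x t M O c y s j' → Pt x t M O k (y⁻¹ * x d 1 * y * x d 1) s 0 := by
    intro y j' b
    obtain ⟨g, j, bg, f⟩ := h.phi_pt e b.toBt
    have g1 : x d 1 * y * x d 1 = y * (g * x c j) := by rw [← f]; group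
    have g2 : x d 1 * y * x d 1 * (x d 1 * y * x d 1) = x c j' * x k j' := by
      have := h.xconj e j' 1
      rw [mul_one, ← b.sq] at this
      rw [← b.sq, ← this]
      simp only [mul_assoc, rp u2, one_mul]
    have g3 := h.star e.hr e.hk (h.sl.sm_rk e) bg b
    have g4 := fun a a' => (h.xx e.hr e.hk (by rw [h.sl.sm_rk e]; omega) a a').symm.eq
    rw [g1] at g2
    simp only [mul_assoc, rp (b.cM _ (h.xm e.hr _)).symm.eq, rp (bg.cM _ (h.ck e _)).symm.eq,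
      rp g3, rp (bg.cM _ (h.xm e.hk _)).symm.eq, rp b.sq, rp bg.sq, rp (g4 _ _),
      rp (h.xsq e.hr j), mul_one, mul_right_inj] at g2
    have g5 : x c j = x k j := by
      rw [← h.xinv e.hr, eq_comm, eq_inv_iff_mul_eq_one, g4, ← mul_left_inj (x k j'), mul_assoc,
        g2, one_mul]
    obtain ⟨rfl, -⟩ := h.ind e.hr e.hk (h.sl.sm_rk e) g5
    rw [f, h.x0 e.hr, mul_one]
    exact bg
  obtain ⟨g, j, bg⟩ := h.exists_pt e.hr s
  have key2 : ∀ y1 j, ∀ o ∈ O, Pt x t M O c y1 s j → y = y1 * o →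
      Pt x t M O k (y⁻¹ * x d 1 * y * x d 1) s 0 := by
    rintro y1 j o ho b1 rfl
    convert key y1 j b1 using 1
    have := (h.w_O e b1.toBt ho).symm.eq
    calc (y1 * o)⁻¹ * x d 1 * (y1 * o) * x d 1 = o⁻¹ * (y1⁻¹ * x d 1 * y1 * (o * x d 1)) := by group
      _ = o⁻¹ * (y1⁻¹ * x d 1 * y1 * x d 1 * o) := by rw [(h.ox e.hs 1 ho).eq]; group
      _ = y1⁻¹ * x d 1 * y1 * x d 1 := by rw [← this]; group
  obtain ⟨a, o, ho, ⟨e1, b1⟩ | ⟨e1, b1⟩⟩ := h.bo_dec e.hr bg b.toBt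
  · exact key2 _ _ o ho b1 e1
  · exact key2 _ _ o ho b1 e1

theorem tG {g : G} (hg : g ∈ Gs D x) : Commute t g :=
  (mem_centralizer_singleton_iff.1 ((XS_le (K := centralizer {t})).2 (fun _ hr a =>
    mem_centralizer_singleton_iff.2 (h.tx (T.lt_iff.1 hr) a).symm.eq) hg) : Commute g t).symm

theorem oG {g o : G} (hg : g ∈ Gs D x) (ho : o ∈ O) : Commute o g :=
  (mem_centralizer_singleton_iff.1 ((XS_le (K := centralizer {o})).2 (fun _ hr a =>
    mem_centralizer_singleton_iff.2 (h.ox (T.lt_iff.1 hr) a ho).symm.eq) hg) : Commute g o).symm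

section

variable {r : ℕ} (hr : r < 2 * T.N) {g g' : G} {s s' : F}
include hr

theorem zh_x (a : F) : Zh x t M O r (x r a) 0 := ⟨h.bo_x hr a, h.xsq hr a, fun _ => ⟨a, rfl⟩⟩

theorem zh_pt (z : Zh x t M O r g s) : Pt x t M O r g s 0 := ⟨z.toBo, by rw [h.x0 hr, z.sq]⟩

theorem zh_of (b : Pt x t M O r g s 0) (h0 : s = 0 → ∃ a, g = x r a) : Zh x t M O r g s :=
  ⟨b.toBo, by rw [b.sq, h.x0 hr], h0⟩

theorem zh_uniq (z : Zh x t M O r g s) (z' : Zh x t M O r g' s) : ∃ a, g' = g * x r a := by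
  by_cases hs : s = 0
  · obtain ⟨a, rfl⟩ := z.z0 hs
    obtain ⟨b, rfl⟩ := z'.z0 hs
    exact ⟨a + b, by rw [← h.xadd hr, ← mul_assoc, h.xsq hr, one_mul]⟩
  · obtain ⟨a, ⟨e, -⟩ | ⟨-, e⟩⟩ := h.pt_uniq hr (h.zh_pt hr z) (h.zh_pt hr z')
    · exact ⟨a, e⟩
    · exact absurd (by simpa using e.symm) hs

theorem zh_par (z : Zh x t M O r g s) (z' : Zh x t M O r g s') : s = s' :=
  h.xinj hr (mul_left_cancel (z.act.symm.trans z'.act))

theorem zh_conj {n : G} {w : T.W} (hn : n ∈ Ns D x) (ha : Acts x T n w) {c : F} (hc : c ≠ 0)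
    (e : ∀ a, n * x r a * n⁻¹ = x (T.act w r) (c * a)) (z : Zh x t M O r g s) :
    Zh x t M O (T.act w r) (n * g * n⁻¹) (c * s) := by
  have h1 := h.tG (T.Ns_le_Gs hn)
  refine ⟨⟨⟨fun m hm => ?_, ?_⟩, fun o ho => ?_⟩, ?_, fun h0 => ?_⟩
  · have h2 := h.eqv _ (inv_mem hn) _ ha.inv _ (T.act_lt w hr) m hm
    rw [T.act_inv_act] at h2
    have h3 := (z.cM _ h2).eq
    calc n * g * n⁻¹ * m = n * (g * (n⁻¹ * m * n⁻¹⁻¹)) * n⁻¹ := by group
      _ = m * (n * g * n⁻¹) := by rw [h3]; group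
  · calc n * g * n⁻¹ * t * (n * g * n⁻¹)⁻¹ = n * (g * (n⁻¹ * (t * n)) * g⁻¹) * n⁻¹ := by group
      _ = n * t * x r s * n⁻¹ := by rw [h1.eq, inv_mul_cancel_left, z.act]; group
      _ = t * x (T.act w r) (c * s) := by rw [← h1.eq, ← e]; group
  · have h2 := (h.oG (T.Ns_le_Gs hn) ho).symm
    exact (h2.mul_left (z.cO o ho)).mul_left h2.inv_left
  · calc n * g * n⁻¹ * (n * g * n⁻¹) = n * (g * g) * n⁻¹ := by group
      _ = 1 := by rw [z.sq]; group
  · obtain ⟨a, rfl⟩ := z.z0 ((mul_eq_zero.1 h0).resolve_left hc)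
    exact ⟨_, e a⟩

theorem zh_hh {d : ℕ} (hd : d < 2 * T.N) {c : F} (hc : c ≠ 0) (z : Zh x t M O r g s) :
    Zh x t M O r (hh D x d c * g * (hh D x d c)⁻¹) (c ^ D.pairing d r * s) := by
  have := h.zh_conj hr (Hs_le_Ns (hh_mem_Hs (T.lt_iff.2 hd) hc)) (h.st.acts_hh T hd hc)
    (zpow_ne_zero (D.pairing d r) hc) (fun a => by rw [T.act_one]; exact h.st.hh_conj T hd hr hc a) z
  rwa [T.act_one] at this

theorem zh_ae {n : G} {w : T.W} (ha : AE T x n w) (z : Zh x t M O r g s) :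
    Zh x t M O (T.act w r) (n * g * n⁻¹) s := by
  simpa using h.zh_conj hr ha.mem ha.acts one_ne_zero (fun a => by rw [one_mul, ha.conj r hr]) z

end

theorem phi_zh {c d k : ℕ} (e : Sm T c d k) {y : G} {s : F} (z : Zh x t M O c y s) :
    Zh x t M O k (y * x d 1 * y * x d 1) s := by
  have := h.phi_bo e z.toBo
  rw [z.inv_eq] at this
  refine h.zh_of e.hk this fun h0 => ?_
  obtain ⟨a, rfl⟩ := z.z0 h0
  refine ⟨a * 1, ?_⟩
  rw [mul_assoc, mul_assoc, ← mul_assoc (x d 1), h.xconj e, ← mul_assoc, h.xsq e.hr, one_mul]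

theorem exists_zh {k : ℕ} (hk : k < 2 * T.N) (s : F) : ∃ g, Zh x t M O k g s := by
  by_cases hs : s = 0
  · exact ⟨_, hs ▸ h.zh_x hk 0⟩
  · obtain ⟨c, d, e⟩ := h.sl.exists_dec hk
    obtain ⟨y, b⟩ := h.exists_bo e.hr s
    exact ⟨_, h.zh_of hk (h.phi_bo e b) fun h0 => absurd h0 hs⟩

theorem phi_surj {c d k : ℕ} (e : Sm T c d k) {g : G} {s : F} (z : Zh x t M O k g s) :
    ∃ y, Zh x t M O c y s ∧ g = y * x d 1 * y * x d 1 := by
  obtain ⟨y, zy⟩ := h.exists_zh e.hr s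
  obtain ⟨a, rfl⟩ := h.zh_uniq e.hk (h.phi_zh e zy) z
  refine ⟨y * x c a, h.zh_of e.hr (h.pt_x e.hr (h.zh_pt e.hr zy) a) fun h0 => ?_, ?_⟩
  · obtain ⟨b, rfl⟩ := zy.z0 h0
    exact ⟨_, h.xadd e.hr _ _⟩
  · have g3 : x c a * x d 1 = x d 1 * (x c a * x k a) := by
      have := h.xconj e a 1
      rw [mul_one] at this
      rw [← this]; simp only [mul_assoc, rp (h.xsq e.hs (1 : F)), one_mul]
    simp only [mul_assoc, rp g3, rp (zy.cM _ (h.xm e.hr _)).symm.eq,
      rp (zy.cM _ (h.kc e _)).symm.eq, rp (h.xsq e.hr a), one_mul,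
      rp (h.xx e.hk e.hr (by rw [h.sl.sm_kr e]; omega) a a).eq,
      rp (h.xx e.hk e.hs (by rw [h.sl.sm_ks e]; omega) a 1).eq]

theorem zh_ind {c k : ℕ} (hc : c < 2 * T.N) (hk : k < 2 * T.N) (p : D.pairing c k = 1) {g : G}
    {s s' : F} (z : Zh x t M O c g s) (z' : Zh x t M O k g s') : g = 1 := by
  obtain ⟨h1, h2⟩ := h.ind hc hk p (mul_left_cancel (z.act.symm.trans z'.act))
  obtain ⟨a, rfl⟩ := z.z0 h1
  obtain ⟨b, e⟩ := z'.z0 h2
  rw [(h.ind hc hk p e).1, h.x0 hc]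

variable [Finite F]

/-- collinear doubled root groups commute -/
theorem zh_col {c k : ℕ} (hc : c < 2 * T.N) (hk : k < 2 * T.N) (p : D.pairing c k = 1) {y g : G}
    {s s' : F} (z : Zh x t M O c y s) (z' : Zh x t M O k g s') : Commute y g := by
  by_cases h1 : s = 0
  · obtain ⟨a, rfl⟩ := z.z0 h1
    exact (z'.cM _ (h.xM' hc hk (by rw [h.sl.symm k hk c hc]; omega) a)).symm
  by_cases h2 : s' = 0
  · obtain ⟨a, rfl⟩ := z'.z0 h2
    exact z.cM _ (h.xM' hk hc (by omega) a)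
  obtain ⟨d, e⟩ := h.sl.exists_sub hc hk p
  obtain ⟨l, hl⟩ := isSquare_of_charTwo' (s / s')
  have hl0 : l ≠ 0 := by
    rintro rfl
    exact div_ne_zero h1 h2 (by simpa using hl)
  have y1 := h.zh_hh hc e.hs hl0 z
  have y2 := h.zh_hh hk e.hs hl0 z'
  rw [h.sl.sm_sr e] at y1
  rw [h.sl.sm_sk e, show l ^ (1 : ℤ) * s' = l ^ (-1 : ℤ) * s by
    rw [div_eq_iff h2] at hl; rw [hl]; field_simp] at y2
  have := h.star hc hk p (h.zh_pt hk y2) (h.zh_pt hc y1)
  rw [h.x0 hc, h.x0 hk, mul_one, mul_one] at this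
  have h3 : hh D x d l * (y * g) * (hh D x d l)⁻¹ = hh D x d l * (g * y) * (hh D x d l)⁻¹ := by
    calc _ = hh D x d l * y * (hh D x d l)⁻¹ * (hh D x d l * g * (hh D x d l)⁻¹) := by group
      _ = _ := by rw [← this]; group
  exact mul_left_cancel (mul_right_cancel h3)

theorem zh_comm {k : ℕ} (hk : k < 2 * T.N) {g g' : G} {s s' : F} (z : Zh x t M O k g s)
    (z' : Zh x t M O k g' s') : Commute g g' := by
  obtain ⟨c, d, e⟩ := h.sl.exists_dec hk
  obtain ⟨y, zy, e1⟩ := h.phi_surj e z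
  obtain ⟨y', zy', e2⟩ := h.phi_surj e z'
  have h1 := (h.phi_bo e (h.bo_mul e.hr zy.toBo zy'.toBo)).sq
  have h2 := (h.zh_col e.hr hk (h.sl.sm_rk e) zy' z).eq
  have h3 : (y * y')⁻¹ * x d 1 * (y * y') * x d 1 = g * g' := by
    calc _ = y'⁻¹ * (y⁻¹ * x d 1 * y) * y' * x d 1 := by group
      _ = y' * g * (x d 1 * y' * x d 1) := by
          rw [zy.inv_eq, zy'.inv_eq, e1]
          simp only [mul_assoc, rp (h.xsq e.hs (1 : F)), one_mul]
      _ = g * g' := by rw [h2, e2]; group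
  rw [h3, h.x0 hk] at h1
  show g * g' = g' * g
  rw [← inv_eq_of_mul_eq_one_right h1, mul_inv_rev, z.inv_eq, z'.inv_eq]

theorem zh_mul {k : ℕ} (hk : k < 2 * T.N) {g g' : G} {s s' : F} (z : Zh x t M O k g s)
    (z' : Zh x t M O k g' s') : Zh x t M O k (g * g') (s + s') := by
  refine ⟨h.bo_mul hk z.toBo z'.toBo, ?_, fun h0 => ?_⟩
  · simp only [mul_assoc, rp (h.zh_comm hk z' z).eq, rp z.sq, z'.sq, one_mul]
  · obtain rfl : s = s' := by rwa [← CharTwo.sub_eq_add, sub_eq_zero] at h0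
    obtain ⟨a, rfl⟩ := h.zh_uniq hk z z'
    exact ⟨a, by rw [← mul_assoc, z.sq, one_mul]⟩

theorem phi_zh' {c d k : ℕ} (e : Sm T c d k) {y : G} {s : F} (z : Zh x t M O c y s) (l : F) :
    Zh x t M O k (y * x d l * y * x d l) (l * s) := by
  by_cases hl : l = 0
  · subst hl
    rw [h.x0 e.hs, mul_one, mul_one, z.sq, zero_mul, ← h.x0 e.hk]
    exact h.zh_x e.hk 0
  have hn := Hs_le_Ns (hh_mem_Hs (x := x) (T.lt_iff.2 e.hr) hl)
  have ha := h.st.acts_hh T e.hr hl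
  have y1 := h.zh_hh e.hr e.hr hl z
  have y2 := h.zh_conj e.hk (inv_mem hn) ha.inv (c := l⁻¹) (inv_ne_zero hl) (fun a => by
    rw [inv_one, T.act_one, inv_inv, h.st.hh_conj' T e.hr e.hk hl, h.sl.sm_rk e, zpow_one])
    (h.phi_zh e y1)
  have h1 := h.st.hh_conj T e.hr e.hs hl l
  rw [h.sl.sm_rs e, zpow_neg_one, inv_mul_cancel₀ hl] at h1
  rw [inv_one, T.act_one, T.pairing_self c e.hr, ← h1] at y2
  convert y2 using 1
  · group
  · rw [zpow_two]; field_simp

theorem zh_ext_l {r s : ℕ} {y g : G} {a b : F} (z : Zh x t M O r y a)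
    (z' : Zh x t M O s g b) {c d k : ℕ} (e1 : Sm T c d r) (e2 : Sm T s d k)
    (hc : ∀ y' a', Zh x t M O c y' a' → Commute y' g) {m : G} (hm : m ∈ M k ⊓ M c) :
    Commute (y * g * y * g) (x d 1 * m * x d 1) := by
  obtain ⟨y', zy, e⟩ := h.phi_surj e1 z
  have u2 := h.xsq e1.hs (1 : F)
  have z2 := h.phi_zh e2 z'
  set f := g * x d 1 * g * x d 1 with hf
  have h1 : x d 1 * g = g * f * x d 1 := by
    rw [hf]; simp only [mul_assoc, rp z'.sq, u2, one_mul, mul_one]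
  have h2 : y = x d 1 * y' * x d 1 * y' := by
    rw [← z.inv_eq, e]; simp only [mul_inv_rev, zy.inv_eq, h.xinv e1.hs, mul_assoc]
  have h3 := (h.zh_col e2.hr e2.hk (h.sl.sm_rk e2) z' z2).symm.eq
  have h4 : y * g * y * g = x d 1 * (y' * f * y' * f) * x d 1 := by
    calc y * g * y * g = (x d 1 * y' * x d 1 * y') * g * (y' * x d 1 * y' * x d 1) * g := by
          rw [← h2, ← e]
      _ = x d 1 * y' * (x d 1 * g) * x d 1 * y' * (x d 1 * g) := by
          simp only [mul_assoc, rp (hc y' a zy).eq, rp zy.sq, one_mul]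
      _ = _ := by
          rw [h1]
          simp only [mul_assoc, rp u2, one_mul, rp (hc y' a zy).eq, rp h3, rp z'.sq]
  have h6 : Commute (y' * f * y' * f) m :=
    (((zy.cM m hm.2).mul_left (z2.cM m hm.1)).mul_left (zy.cM m hm.2)).mul_left (z2.cM m hm.1)
  rw [h4]
  calc _ = x d 1 * (y' * f * y' * f * m) * x d 1 := by simp only [mul_assoc, rp u2, one_mul]
    _ = _ := by rw [h6.eq]; simp only [mul_assoc, rp u2, one_mul]

theorem zh_ext {r s : ℕ} {y g : G} {a b : F} (z : Zh x t M O r y a) (z' : Zh x t M O s g b)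
    (h1 : ∀ c d k, Sm T c d r → Sm T s d k → ∀ y' a', Zh x t M O c y' a' → Commute y' g)
    (h2 : ∀ c d k, Sm T c d s → Sm T r d k → ∀ y' a', Zh x t M O c y' a' → Commute y' y) :
    Ext T x M r s (y * g * y * g) := by
  refine ⟨fun m hm => (((z.cM m hm.1).mul_left (z'.cM m hm.2)).mul_left (z.cM m hm.1)).mul_left
    (z'.cM m hm.2), fun c d k e1 e2 m hm => h.zh_ext_l z z' e1 e2 (h1 c d k e1 e2) hm,
    fun c d k e1 e2 m hm => ?_⟩
  have := (h.zh_ext_l z' z e1 e2 (h2 c d k e1 e2) hm).inv_left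
  simpa only [mul_inv_rev, z.inv_eq, z'.inv_eq, mul_assoc] using this

/-- orthogonal doubled root groups commute -/
theorem zh_orth {r s : ℕ} (hr : r < 2 * T.N) (hs : s < 2 * T.N) (p : D.pairing r s = 0) {y g : G}
    {a b : F} (z : Zh x t M O r y a) (z' : Zh x t M O s g b) : Commute y g := by
  have p' : D.pairing s r = 0 := by rw [h.sl.symm s hs r hr, p]
  have c1 := fun a => z'.cM _ (h.xM' hr hs p'.ge a)
  have c2 := fun a => z.cM _ (h.xM' hs hr p.ge a)
  by_cases ha : a = 0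
  · obtain ⟨a', rfl⟩ := z.z0 ha
    exact (c1 a').symm
  have key : ∀ {r s : ℕ}, D.pairing s r = 0 → ∀ {g b}, Zh x t M O s g b → ∀ c d k, Sm T c d r →
      Sm T s d k → ∀ y' a', Zh x t M O c y' a' → Commute y' g := by
    intro r s p g b z' c d k e1 e2 y' a' zy
    have := e1.pair s
    rw [p, h.sl.sm_rs e2] at this
    exact (h.zh_col e2.hr e1.hr (by omega) z' zy).symm
  have h1 : Commute t (y * g * y * g) := by
    show _ = _
    simp only [mul_assoc, rp (h.bt_ts hr z.toBt), rp (h.bt_ts hs z'.toBt), rp (c1 a).symm.eq,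
      rp (c2 b).symm.eq, rp (z.cM _ (h.xm hr a)).symm.eq, rp (z'.cM _ (h.xm hs b)).symm.eq,
      rp (h.xsq hr a), rp (h.xsq hs b), one_mul, mul_one, rp (h.xx hr hs p.ge a b).eq]
  have h2 : y * (y * g * y * g) * y * (y * g * y * g) = 1 := by
    simp only [mul_assoc, rp z.sq, rp z'.sq, one_mul]
  obtain ⟨o, ho, e | e⟩ := h.rig3 r hr s hs p _ h1 (h.zh_ext z z' (key p' z') (key p z))
  · rw [e] at h2
    simp only [mul_assoc, rp (z.cO o ho).symm.eq, rp z.sq, one_mul] at h2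
    rw [eq_one_of_odd (h.odd o ho) (mul_one 1) h2] at e
    show y * g = g * y
    rw [← inv_eq_of_mul_eq_one_right (by rw [← e]; group : y * g * (y * g) = 1), mul_inv_rev,
      z.inv_eq, z'.inv_eq]
  · rw [e] at h2
    simp only [mul_assoc, rp (z.cO o ho).symm.eq, rp z.sq, one_mul, rp (h.bt_ts hr z.toBt),
      rp (h.Ot o ho).symm.eq, rp (h.tx hr a).symm.eq, rp h.tt] at h2
    have h3 := eq_one_of_odd (h.odd o ho) (h.xsq hr a)
      (by rw [← h.xinv hr]; exact eq_inv_of_mul_eq_one_right h2)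
    rw [h3, mul_one, mul_one, ← h.x0 hr] at h2
    exact absurd (h.xinj hr h2) ha

theorem zh_com {r s : ℕ} (hr : r < 2 * T.N) (hs : s < 2 * T.N) (p : 0 ≤ D.pairing r s) {y g : G}
    {a b : F} (z : Zh x t M O r y a) (z' : Zh x t M O s g b) : Commute y g := by
  by_cases e : s = r
  · subst e; exact h.zh_comm hs z z'
  have := h.sl.le_one r hr s hs e
  by_cases p0 : D.pairing r s = 0
  · exact h.zh_orth hr hs p0 z z'
  · exact h.zh_col hr hs (by omega) z z'

/-- the commutator relation -/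
theorem zh_sum {r s k : ℕ} (e : Sm T r s k) {y g : G} {a b : F} (z : Zh x t M O r y a)
    (z' : Zh x t M O s g b) : ∃ c, Zh x t M O k (y * g * y * g) c := by
  have inv : ∀ {w : G} {c : F}, Zh x t M O k w c → Zh x t M O k w⁻¹ c := fun z => by
    rwa [z.inv_eq]
  by_cases ha : a = 0
  · obtain ⟨a', rfl⟩ := z.z0 ha
    have := inv (h.phi_zh' e.symm z' a')
    exact ⟨_, by simpa only [mul_inv_rev, z'.inv_eq, h.xinv e.hr, mul_assoc] using this⟩
  have key : ∀ {r s k : ℕ}, Sm T r s k → ∀ {g b}, Zh x t M O s g b → ∀ c d k', Sm T c d r →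
      Sm T s d k' → ∀ y' a', Zh x t M O c y' a' → Commute y' g := by
    intro r s k e g b z' c d k' e1 e2 y' a' zy
    have := e1.pair s
    rw [h.sl.sm_sr e, h.sl.sm_rs e2] at this
    exact (h.zh_orth e2.hr e1.hr (by omega) z' zy).symm
  have h1 := h.rig4 r s k e _ (h.zh_ext z z' (key e z') (key e.symm z))
  have f1 := h.phi_zh' e z b
  have f2 := h.phi_zh' e.symm z' a
  set f := y * x s b * y * x s b with hf
  set f' := g * x r a * g * x r a with hf'
  have f3 := h.zh_mul e.hk f2 f1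
  rw [mul_comm a b, CharTwo.add_self_eq_zero] at f3
  obtain ⟨c, hc⟩ := f3.z0 rfl
  have g1 : x s b * y = y * f * x s b := by
    rw [hf]; simp only [mul_assoc, rp z.sq, h.xsq e.hs, one_mul, mul_one]
  have g2 : x r a * g = g * f' * x r a := by
    rw [hf']; simp only [mul_assoc, rp z'.sq, h.xsq e.hr, one_mul, mul_one]
  have p1 := h.sl.sm_rk e
  have p2 := h.sl.sm_sk e
  have c1 := h.zh_col e.hr e.hk p1 z f1
  have c2 := h.zh_col e.hr e.hk p1 z f2
  have c3 := h.zh_col e.hs e.hk p2 z' f1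
  have c4 := h.zh_col e.hs e.hk p2 z' f2
  have g3 := h.sl.sum h.st.toIsSt0 e a b
  have b1 : Bo x t M O k (y * g * y * g) (a * b + c) := by
    refine ⟨?_, fun o ho => (((z.cO o ho).mul_left (z'.cO o ho)).mul_left (z.cO o ho)).mul_left
      (z'.cO o ho)⟩
    have g4 : t * (y * g * y * g) = y * g * y * g * (t * x k (a * b + c)) := by
      clear_value f f'
      simp only [mul_assoc, rp (h.bt_ts e.hr z.toBt), rp (h.bt_ts e.hs z'.toBt),
        rp (h.bt_ts e.hk f1.toBt), rp (h.bt_ts e.hk f2.toBt), rp g1, rp g2, rp c1.symm.eq,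
        rp c2.symm.eq, rp c3.symm.eq, rp c4.symm.eq, rp (z.cM _ (h.xm e.hr a)).symm.eq,
        rp (z'.cM _ (h.xm e.hs b)).symm.eq, rp (z.cM _ (h.kc e _)).symm.eq,
        rp (z'.cM _ (h.kc e.symm _)).symm.eq, rp (f1.cM _ (h.xm e.hk _)).symm.eq,
        rp (f2.cM _ (h.xm e.hk _)).symm.eq, rp (f1.cM _ (h.ck e _)).symm.eq,
        rp (f2.cM _ (h.ck e _)).symm.eq, rp (f1.cM _ (h.dk e _)).symm.eq,
        rp (f2.cM _ (h.dk e _)).symm.eq, rp hc, rp (h.zh_comm e.hk f1 f2).eq, rp g3,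
        rp (h.xx e.hk e.hr (by rw [h.sl.sm_kr e]; omega) _ _).eq,
        rp (h.xx e.hk e.hs (by rw [h.sl.sm_ks e]; omega) _ _).eq, rp (h.tx e.hk _).symm.eq,
        rp (h.xsq e.hr a), rp (h.xsq e.hs b), rp (h.xadd e.hk _ _), one_mul, mul_right_inj,
        rp f2.sq]
      congr 1
      ring1
    have := h.bt_inv e.hk (g := (y * g * y * g)⁻¹) ⟨fun m hm => (h1 m hm).inv_left, by
      rw [inv_inv, mul_assoc, g4, inv_mul_cancel_left]⟩
    rwa [inv_inv] at this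
  obtain ⟨w, zw⟩ := h.exists_zh e.hk (a * b + c)
  have h2 : y * (y * g * y * g) * y * (y * g * y * g) = 1 := by
    simp only [mul_assoc, rp z.sq, rp z'.sq, one_mul]
  have c5 := h.zh_col e.hr e.hk p1 z zw
  obtain ⟨a', o, ho, ⟨e1, b2⟩ | ⟨e1, b2⟩⟩ := h.bo_dec e.hk (h.zh_pt e.hk zw) b1.toBt
  · have z2 := h.zh_mul e.hk zw (h.zh_x e.hk a')
    have c6 := h.zh_col e.hr e.hk p1 z z2
    rw [e1] at h2 ⊢
    generalize w * x k a' = w' at h2 z2 c6
    simp only [mul_assoc, rp (z.cO o ho).symm.eq, rp c6.symm.eq, rp z.sq, rp (z2.cO o ho).symm.eq,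
      rp z2.sq, one_mul] at h2
    rw [eq_one_of_odd (h.odd o ho) (mul_one 1) h2, mul_one]
    exact ⟨_, z2⟩
  · have z2 := h.zh_mul e.hk zw (h.zh_x e.hk a')
    have c6 := h.zh_col e.hr e.hk p1 z z2
    rw [e1] at h2
    generalize w * x k a' = w' at h2 z2 c6
    generalize a * b + c + 0 = c' at z2
    simp only [mul_assoc, rp (z.cO o ho).symm.eq, rp c6.symm.eq, rp z.sq, rp (z2.cO o ho).symm.eq,
      rp z2.sq, one_mul, rp (h.bt_ts e.hr z.toBt), rp (h.bt_ts e.hk z2.toBt),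
      rp (z2.cM _ (h.ck e a)).symm.eq, rp (h.Ot o ho).symm.eq, rp (h.tx e.hr a).symm.eq,
      rp (h.tx e.hk c').symm.eq, rp h.tt] at h2
    have h3 := eq_one_of_odd (h.odd o ho) (z := x r a * x k c') (by
      simp only [mul_assoc, rp (h.xx e.hk e.hr (by rw [h.sl.sm_kr e]; omega) _ _).eq,
        rp (h.xsq e.hr a), h.xsq e.hk c', one_mul]) (by
      rw [← mul_assoc, mul_eq_one_iff_inv_eq] at h2
      rw [← h2, mul_inv_rev, h.xinv e.hr, h.xinv e.hk])
    rw [h3, mul_one, mul_one, mul_eq_one_iff_eq_inv, h.xinv e.hr] at h2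
    exact absurd (h.ind e.hr e.hk p1 h2.symm).1 ha

theorem xh_iff {r : ℕ} (hr : r < 2 * T.N) {g : G} : g ∈ Xh x t M r ↔ ∃ s, Zh x t M O r g s := by
  constructor
  · rintro ⟨h1, h2, ⟨s, h3⟩, h4⟩
    have b : Bt x t M r g s := ⟨h2, by rw [inv_eq_of_mul_eq_one_right h1, h3]⟩
    obtain ⟨w, zw⟩ := h.exists_zh hr s
    have key : ∀ g' j, ∀ o ∈ O, Pt x t M O r g' s j → g = g' * o → o = 1 ∧ j = 0 := by
      rintro g' j o ho b' rfl
      simp only [mul_assoc, rp (b'.cO o ho).symm.eq, rp b'.sq] at h1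
      have h5 := eq_one_of_odd (h.odd o ho) (h.xsq hr j)
        (by rw [← h.xinv hr]; exact eq_inv_of_mul_eq_one_right h1)
      rw [h5, mul_one, mul_one, ← h.x0 hr] at h1
      exact ⟨h5, h.xinj hr h1⟩
    obtain ⟨a, o, ho, ⟨e, b2⟩ | ⟨e, b2⟩⟩ := h.bo_dec hr (h.zh_pt hr zw) b
    · obtain ⟨rfl, -⟩ := key _ _ o ho b2 e
      rw [e, mul_one]
      exact ⟨_, h.zh_mul hr zw (h.zh_x hr a)⟩
    · obtain ⟨rfl, h5⟩ := key _ _ o ho b2 e
      obtain ⟨a', rfl⟩ := zw.z0 (by simpa using h5)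
      exact absurd (by rw [e, h.xadd hr, mul_one, (h.tx hr _).eq]) (h4 (a' + a))
  · rintro ⟨s, z⟩
    refine ⟨z.sq, z.cM, ⟨s, by rw [← z.act, z.inv_eq]⟩, fun a e => ?_⟩
    have h1 : s = 0 := h.xinj hr (by
      have := z.act
      rw [e, ((Commute.refl t).mul_left (h.tx hr a).symm).eq, mul_inv_cancel_right] at this
      rw [h.x0 hr]; exact (mul_eq_left.1 this.symm))
    obtain ⟨b, e'⟩ := z.z0 h1
    refine h.tn (mem_sup_left ?_)
    rw [e', ← mul_inv_eq_iff_eq_mul] at e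
    rw [← e]
    exact mul_mem (mem_Gs (T.lt_iff.2 hr) b) (inv_mem (mem_Gs (T.lt_iff.2 hr) a))

end Dbl

end Cfsg.Agent.SLE
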