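import Mathlib
import Cfsg.Agent.SLE.DP2

/-! Doubling of the root groups, part 3: the coordinate ring. -/

set_option autoImplicit false
set_option linter.unusedSectionVars false
set_option linter.unusedSimpArgs false

namespace Cfsg.Agent.SLE

open Cfsg.Lie Cfsg.Agent.Chev Subgroup

universe u

variable {D : ChevalleyDatum} {T : RootTable D}
variable {F : Type*} [Field F] {G : Type u} [Group G]

namespace Dbl

variable [CharP F 2] {x : ℕ → F → G} {t : G} {M : ℕ → Subgroup G} {N : ℕ → ℕ → Subgroup G}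
  {O : Subgroup G} (h : Dbl T x t M N O)
include h

theorem ae_fix {θ : ℕ} (hθ : θ < 2 * T.N) (hd : ∀ i : Fin D.rank, 0 ≤ D.cartan i θ) {n : G}
    {w : T.W} (ha : AE T x n w) (hw : T.act w θ = θ) {z : G} {s : F} (hz : Zh x t M O θ z s) :
    n * z * n⁻¹ = z := by
  have hp : ∀ i : Fin D.rank, RootTable.corootHom D θ (T.vec (D.simple i)) =
      D.pairing θ (D.simple i) := fun i => (T.pairing_eq_corootHom _ (T.simple_lt i)).symm
  have h1 := T.mem_coxParabolic_of_fix (RootTable.corootHom D θ) (w := w) (fun i => by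
    rw [hp, h.sl.symm _ hθ _ (T.simple_lt i), T.pairing_simple]; exact hd i) (fun i => by
    rw [hp, ← T.pairing_eq_corootHom _ (T.act_lt w (T.simple_lt i)),
      ← T.pairing_act w hθ (T.simple_lt i), hw])
  obtain ⟨g, hg, ag⟩ := AE.exists_mem (T := T) (K := M θ) h.st (fun i hi => by
    have hi' : D.pairing θ (D.simple i) = 0 := by rw [← hp]; exact hi
    exact nn_mem (fun a => h.xM' (T.simple_lt i) hθ hi'.ge a) (fun a => h.xM'
      (T.neg_lt (T.simple_lt i)) hθ (by rw [T.pairing_neg_right _ (T.simple_lt i), hi']; rfl) a) 1)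
    h1
  have h2 := ag.inv.mul ha
  have h3 := h.zen _ (T.Ns_le_Gs h2.mem) fun r hr a => by
    have := h2.conj r hr a
    rw [inv_mul_cancel, T.act_one, mul_inv_eq_iff_eq_mul] at this
    exact this
  have h4 := (hz.cM g hg).mul_right (hz.cO _ h3)
  rw [mul_inv_cancel_left] at h4
  rw [← h4.eq, mul_inv_cancel_right]

variable [Finite F]

/-- the doubled root groups, parametrized by one of them -/
theorem exists_par : ∃ (E : Type u) (y : ℕ → E → G),
    (∀ r < 2 * T.N, ∀ g, (∃ s, Zh x t M O r g s) ↔ ∃ e, g = y r e) ∧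
    (∀ r < 2 * T.N, Function.Injective (y r)) ∧
    (∀ n w, AE T x n w → ∀ r < 2 * T.N, ∀ e, n * y r e * n⁻¹ = y (T.act w r) e) := by
  obtain ⟨θ0, hθ0, -⟩ := h.sl.tri
  obtain ⟨w0, hd⟩ := T.exists_dominant hθ0
  have hθ := T.act_lt w0 hθ0
  generalize T.act w0 θ0 = θ at hd hθ
  have h1 : ∀ r, ∃ n, ∃ w : T.W, AE T x n w ∧ (r < 2 * T.N → T.act w θ = r) := fun r => by
    by_cases hr : r < 2 * T.N
    · obtain ⟨w, hw⟩ := h.sl.tr0 θ hθ r hr
      obtain ⟨n, hn⟩ := AE.ex (T := T) h.st w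
      exact ⟨n, w, hn, fun _ => hw⟩
    · exact ⟨1, 1, AE.one, fun h => absurd h hr⟩
  choose n w hn hw using h1
  have hw' : ∀ r < 2 * T.N, T.act (w r)⁻¹ r = θ := fun r hr => by
    have := T.act_inv_act (w r) θ
    rwa [hw r hr] at this
  refine ⟨{g : G // ∃ s, Zh x t M O θ g s}, fun r e => n r * e.1 * (n r)⁻¹, fun r hr g => ⟨?_, ?_⟩,
    fun r hr e f hef => Subtype.ext (mul_left_cancel (mul_right_cancel hef)),
    fun m v hm r hr e => ?_⟩
  · rintro ⟨s, z⟩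
    have := h.zh_ae hr (hn r).inv z
    rw [hw' r hr] at this
    exact ⟨⟨_, s, this⟩, by group⟩
  · rintro ⟨⟨e, s, z⟩, rfl⟩
    have := h.zh_ae hθ (hn r) z
    rw [hw r hr] at this
    exact ⟨s, this⟩
  · obtain ⟨s, z⟩ := e.2
    have hr' := T.act_lt v hr
    have := h.ae_fix hθ hd (((hn (T.act v r)).inv.mul hm).mul (hn r)) (by
      rw [T.act_mul, T.act_mul, hw r hr, hw' _ hr']) z
    dsimp only
    conv_rhs => rw [← this]
    group

theorem exists_rng : ∃ (E : Type u) (_ : CommRing E) (ι : F →+* E) (τ : E ≃+* E) (y : ℕ → E → G),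
    Rng T x t M ι τ y := by
  obtain ⟨E, y, mem, inj, eqv⟩ := h.exists_par
  have zy : ∀ r < 2 * T.N, ∀ e, ∃ s, Zh x t M O r (y r e) s := fun r hr e => (mem r hr _).2 ⟨e, rfl⟩
  obtain ⟨c0, hc0, -⟩ := h.sl.tri
  obtain ⟨a0, b0, e0⟩ := h.sl.exists_dec hc0
  -- transport from `c0` to any root
  have tr : ∀ r < 2 * T.N, ∃ n, (∀ e, n * y c0 e * n⁻¹ = y r e) ∧ (∀ a, n * x c0 a * n⁻¹ = x r a) ∧
      Commute t n := fun r hr => by
    obtain ⟨w, rfl⟩ := h.sl.tr0 c0 hc0 r hr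
    obtain ⟨n, hn⟩ := AE.ex (T := T) h.st w
    exact ⟨n, eqv n w hn c0 hc0, hn.conj c0 hc0, h.tG (T.Ns_le_Gs hn.mem)⟩
  have ysq : ∀ r < 2 * T.N, ∀ e, y r e * y r e = 1 := fun r hr e => (zy r hr e).choose_spec.sq
  have com : ∀ r < 2 * T.N, ∀ s < 2 * T.N, 0 ≤ D.pairing r s → ∀ e f, Commute (y r e) (y s f) :=
    fun r hr s hs p e f => h.zh_com hr hs p (zy r hr e).choose_spec (zy s hs f).choose_spec
  have h1 : ∀ e f, ∃ g, y c0 e * y c0 f = y c0 g := fun e f =>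
    (mem c0 hc0 _).1 ⟨_, h.zh_mul hc0 (zy c0 hc0 e).choose_spec (zy c0 hc0 f).choose_spec⟩
  choose add hadd using h1
  have h2 : ∀ e f, ∃ g, y a0 e * y b0 f * y a0 e * y b0 f = y c0 g := fun e f =>
    (mem c0 hc0 _).1 (h.zh_sum e0 (zy _ e0.hr e).choose_spec (zy _ e0.hs f).choose_spec)
  choose mul hmul using h2
  have h3 : ∀ a, ∃ g, x c0 a = y c0 g := fun a => (mem c0 hc0 _).1 ⟨_, h.zh_x hc0 a⟩
  choose ι hι using h3
  have h4 : ∀ e, ∃ g, t * y c0 e * t⁻¹ = y c0 g := fun e => by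
    obtain ⟨s, z⟩ := zy c0 hc0 e
    refine (mem c0 hc0 _).1 ⟨s + 0, ?_⟩
    convert h.zh_mul hc0 z (h.zh_x hc0 s) using 1
    rw [h.bt_ts hc0 z.toBt, (h.tx hc0 s).eq]; group
  choose τ hτ using h4
  have add' : ∀ r < 2 * T.N, ∀ e f, y r e * y r f = y r (add e f) := fun r hr e f => by
    obtain ⟨n, h1, -⟩ := tr r hr
    rw [← h1, ← h1, ← h1, ← hadd]; group
  have ext' : ∀ r < 2 * T.N, ∀ a, y r (ι a) = x r a := fun r hr a => by
    obtain ⟨n, h1, h2, -⟩ := tr r hr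
    rw [← h1, ← h2, hι]
  have act' : ∀ r < 2 * T.N, ∀ e, t * y r e * t⁻¹ = y r (τ e) := fun r hr e => by
    obtain ⟨n, h1, -, h2⟩ := tr r hr
    rw [← h1, ← h1, ← hτ]
    simp only [mul_assoc, rp h2.eq, ← mul_inv_rev, h2.eq]
  have sum' : ∀ r s k, Sm T r s k → ∀ e f, y s f * y r e = y r e * y s f * y k (mul e f) := by
    intro r s k e1 e f
    obtain ⟨w, rfl, rfl, rfl⟩ := h.sl.tr_sm e0 e1
    obtain ⟨n, hn⟩ := AE.ex (T := T) h.st w
    have h5 : y b0 f * y a0 e = y a0 e * y b0 f * y c0 (mul e f) := by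
      have h6 : y c0 (mul e f) = y b0 f * y a0 e * y b0 f * y a0 e := by
        rw [← inv_eq_of_mul_eq_one_right (ysq c0 hc0 _), ← hmul]
        simp only [mul_inv_rev, inv_eq_of_mul_eq_one_right (ysq _ e0.hr _),
          inv_eq_of_mul_eq_one_right (ysq _ e0.hs _), mul_assoc]
      rw [h6]
      simp only [mul_assoc, rp (ysq _ e0.hr _), rp (ysq _ e0.hs _), one_mul]
    rw [← eqv n w hn _ e0.hr, ← eqv n w hn _ e0.hs, ← eqv n w hn _ e0.hk]
    calc _ = n * (y b0 f * y a0 e) * n⁻¹ := by group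
      _ = _ := by rw [h5]; group
  have y0 : ∀ r < 2 * T.N, y r (ι 0) = 1 := fun r hr => by rw [ext' r hr, h.x0 hr]
  have cr : ∀ {r s k}, Sm T r s k → ∀ e f, y k e * y r f = y r f * y k e := fun e1 e f =>
    (com _ e1.hk _ e1.hr (by rw [h.sl.sm_kr e1]; omega) e f).eq
  have mcomm : ∀ e f, mul e f = mul f e := fun e f => inj c0 hc0 (by
    have h5 := sum' _ _ _ e0.symm f e
    rw [sum' _ _ _ e0, mul_assoc, eq_comm, mul_eq_left] at h5
    rw [← inv_eq_of_mul_eq_one_right (ysq c0 hc0 _)]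
    exact inv_eq_of_mul_eq_one_right h5)
  have distr : ∀ e f g, mul e (add f g) = add (mul e f) (mul e g) := fun e f g => inj c0 hc0 (by
    have h5 := sum' _ _ _ e0 e (add f g)
    rw [← add' _ e0.hs] at h5
    simp only [mul_assoc, rp (sum' _ _ _ e0 _ _), rp (cr e0.symm _ _), mul_right_inj] at h5
    rw [← h5, add' c0 hc0])
  have mone : ∀ e, mul e (ι 1) = e := fun e => by
    have e1 := e0.sub
    have h5 := eqv _ _ (AE.rw (T := T) h.st e0.hs) a0 e0.hr e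
    rw [SL.sm_rw e0 (h.sl.sm_sr e0), mul_inv_eq_iff_eq_mul, nn, inv_one, CharTwo.neg_eq,
      ← ext' _ e0.hs, ← ext' _ e1.hs] at h5
    simp only [mul_assoc, rp (sum' _ _ _ e0 _ _), rp (sum' _ _ _ e1 _ _), rp (cr e0 _ _),
      rp (cr e0.symm _ _).symm, rp (cr e1.symm _ _).symm] at h5
    simp only [← mul_assoc, mul_left_inj] at h5
    have h6 : y a0 e * y a0 (mul (mul e (ι 1)) (ι 1)) = 1 := by
      rw [add' _ e0.hr] at h5 ⊢
      rw [mul_assoc, mul_assoc, add' _ hc0, add' _ hc0, ← eq_mul_inv_iff_mul_eq,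
        inv_eq_of_mul_eq_one_right (ysq _ hc0 _), add' _ hc0] at h5
      exact h.zh_ind e0.hr hc0 (h.sl.sm_rk e0) (zy _ e0.hr _).choose_spec
        (by rw [h5]; exact (zy _ hc0 _).choose_spec)
    have h7 : mul (mul e (ι 1)) (ι 1) = e := inj _ e0.hr (by
      rw [← inv_eq_of_mul_eq_one_right h6, inv_eq_of_mul_eq_one_right (ysq _ e0.hr _)])
    rw [h6, h7, one_mul, ysq _ hc0, one_mul] at h5
    exact inj _ hc0 h5
  have massoc : ∀ e f g, mul (mul e f) g = mul e (mul f g) := fun e f g => by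
    obtain ⟨b, hb, q, hq, r, hr, p1, p2, p3⟩ := h.sl.tri
    obtain ⟨a, e1⟩ := h.sl.exists_sub hb hq p1
    have hc := T.neg_lt hr
    obtain ⟨bc, e2⟩ := SL.exists_sm hb hc (by rw [T.pairing_neg_right _ hr, p2])
    obtain ⟨k, e3⟩ := SL.exists_sm hq hc (by rw [T.pairing_neg_right _ hr, p3])
    have e4 : Sm T a bc k := ⟨e1.hs, e2.hk, e3.hk, by rw [e3.eq, e2.eq, e1.eq]; abel⟩
    have p4 : 0 ≤ D.pairing (D.neg r) a := by
      have := e1.pair (D.neg r)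
      rw [h.sl.sm_sr e2, h.sl.sm_sr e3] at this
      omega
    have p5 : 0 ≤ D.pairing q bc := by
      rw [e2.pair q, h.sl.sm_kr e1, h.sl.sm_rs e3]; omega
    have h5 : y (D.neg r) g * (y b f * y a e) = y (D.neg r) g * (y a e * y b f * y q (mul e f)) := by
      rw [sum' _ _ _ e1.symm]
    rw [← mul_assoc, sum' _ _ _ e2] at h5
    simp only [mul_assoc, rp (sum' _ _ _ e2 _ _), rp (sum' _ _ _ e3 _ _),
      rp (com _ hc _ e1.hs p4 _ _).eq, rp (sum' _ _ _ e4 _ _), rp (sum' _ _ _ e1.symm _ _),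
      rp (com _ hq _ e2.hk p5 _ _).symm.eq, rp (cr e2 _ _), rp (cr e3 _ _), rp (cr e4 _ _),
      rp (cr e3.symm _ _), rp (cr e2.symm _ _), rp (cr e4.symm _ _), mul_right_inj] at h5
    exact inj _ e3.hk h5.symm
  let _inst : Add E := ⟨add⟩
  let _inst : Mul E := ⟨mul⟩
  let _inst : Neg E := ⟨id⟩
  let _inst : Zero E := ⟨ι 0⟩
  let _inst : One E := ⟨ι 1⟩
  let R : CommRing E := CommRing.ofMinimalAxioms
    (fun a b c => inj c0 hc0 (show y c0 (add (add a b) c) = y c0 (add a (add b c)) by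
      simp only [← hadd, mul_assoc]))
    (fun a => inj c0 hc0 (show y c0 (add (ι 0) a) = y c0 a by rw [← hadd, y0 c0 hc0, one_mul]))
    (fun a => inj c0 hc0 (show y c0 (add a a) = y c0 (ι 0) by rw [← hadd, y0 c0 hc0, ysq c0 hc0]))
    massoc mcomm (fun a => (mcomm _ _).trans (mone a)) distr
  have ττ : ∀ e, τ (τ e) = e := fun e => inj c0 hc0 (by
    rw [← hτ, ← hτ, h.tinv]; simp only [mul_assoc, rp h.tt, h.tt, one_mul, mul_one])
  have ti : ∀ e s, Zh x t M O c0 (y c0 e) s → τ e = add e (ι s) := fun e s z => inj c0 hc0 (by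
    rw [← hτ, ← hadd, ← hι, h.bt_ts hc0 z.toBt, (h.tx hc0 s).eq]; group)
  refine ⟨E, R, ⟨⟨⟨ι, rfl⟩, fun a b => inj c0 hc0 ?_⟩, rfl, fun a b => inj c0 hc0 ?_⟩,
    ⟨⟨τ, τ, ττ, ττ⟩, fun a b => inj c0 hc0 ?_, fun a b => inj c0 hc0 ?_⟩, y, add', com, sum', inj,
    ext', act', ττ, fun e => ⟨fun he => ?_, ?_⟩, ?_, fun r hr g => (h.xh_iff hr).trans (mem r hr g)⟩
  · have h5 := sum' _ _ _ e0 (ι a) (ι b)
    rw [ext' _ e0.hr, ext' _ e0.hs, h.sl.sum h.st.toIsSt0 e0, mul_right_inj] at h5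
    exact (ext' c0 hc0 _).trans h5
  · exact (ext' c0 hc0 _).trans (by
      rw [← h.xadd hc0, hι, hι]; exact hadd _ _)
  · have h5 := sum' _ _ _ e0 (τ a) (τ b)
    rw [← act' _ e0.hr, ← act' _ e0.hs] at h5
    show y c0 (τ (mul a b)) = y c0 (mul (τ a) (τ b))
    rw [← hτ, ← mul_right_inj (t * y a0 a * t⁻¹ * (t * y b0 b * t⁻¹)), ← h5]
    calc _ = t * (y a0 a * y b0 b * y c0 (mul a b)) * t⁻¹ := by group
      _ = _ := by rw [← sum' _ _ _ e0]; group
  · show y c0 (τ (add a b)) = y c0 (add (τ a) (τ b))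
    rw [← hτ, ← hadd, ← hadd, ← hτ, ← hτ]; group
  · obtain ⟨s, z⟩ := zy c0 hc0 e
    have h5 : y c0 (τ e) = y c0 e := congrArg _ he
    rw [ti e s z, ← hadd, mul_eq_left, ← hι, ← h.x0 hc0] at h5
    obtain ⟨a, ha⟩ := z.z0 (h.xinj hc0 h5)
    exact ⟨a, inj c0 hc0 ((hι a).symm.trans ha.symm)⟩
  · rintro ⟨a, rfl⟩
    refine inj c0 hc0 (show y c0 (τ (ι a)) = y c0 (ι a) from ?_)
    rw [← hτ, ← hι, (h.tx hc0 a).eq, mul_inv_cancel_right]
  · obtain ⟨g, z⟩ := h.exists_zh hc0 1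
    obtain ⟨e, rfl⟩ := (mem c0 hc0 g).1 ⟨1, z⟩
    exact ⟨e, ti e 1 z⟩

end Dbl

end Cfsg.Agent.SLE
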