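import Mathlib
import Cfsg.Agent.SLE.Ring

/-! The output of the doubling: field case or split case. -/

set_option autoImplicit false
set_option linter.unusedSectionVars false
set_option linter.unusedSimpArgs false

namespace Cfsg.Agent.SLE

open Cfsg.Lie Cfsg.Agent.Chev Subgroup

universe u

variable {D : ChevalleyDatum} {T : RootTable D}
variable {F : Type*} [Field F] {G : Type u} [Group G]

/-- an involution normalizing a subgroup of even order centralizes an involution of it -/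
theorem exists_invol_comm [Finite G] {K : Subgroup G} {t k : G} (tt : t * t = 1)
    (ht : ∀ a ∈ K, t * a * t⁻¹ ∈ K) (hk : k ∈ K) (he : ¬ Odd (orderOf k)) :
    ∃ z ∈ K, z ≠ 1 ∧ z * z = 1 ∧ Commute t z := by
  obtain ⟨k, hk, k1, kk⟩ : ∃ z ∈ K, z ≠ 1 ∧ z * z = 1 := by
    obtain ⟨m, hm⟩ := Nat.not_odd_iff_even.1 he
    have h0 := orderOf_pos k
    exact ⟨k ^ m, pow_mem hk m, pow_ne_one_of_lt_orderOf (by omega) (by omega), by
      rw [← pow_add, ← hm, pow_orderOf_eq_one]⟩
  have ti : t⁻¹ = t := inv_eq_of_mul_eq_one_right tt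
  have ki : k⁻¹ = k := inv_eq_of_mul_eq_one_right kk
  have h1 : ∀ m, (k * t) ^ (2 * m) ∈ K := fun m => by
    rw [pow_mul]
    refine pow_mem ?_ m
    have := mul_mem hk (ht k hk)
    rwa [ti, ← mul_assoc, ← mul_assoc, mul_assoc (k * t), ← sq] at this
  have h2 : ∀ m : ℕ, t * (k * t) ^ m = ((k * t) ^ m)⁻¹ * t := fun m => by
    have : t * (k * t) * t⁻¹ = (k * t)⁻¹ := by rw [mul_inv_rev, ti, ki]; simp [mul_assoc, tt]
    rw [← inv_pow, ← this, conj_pow]; group
  have h3 : ∀ j, (k * t) ^ j * (k * t) ^ j = 1 → Commute t ((k * t) ^ j) := fun j hj => by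
    show _ = _
    rw [h2, inv_eq_of_mul_eq_one_right hj]
  have h4 : ∀ m, (k * t) ^ (2 * m + 1) * (k * t) ^ (2 * m + 1) = 1 →
      ∃ z ∈ K, z ≠ 1 ∧ z * z = 1 ∧ Commute t z := fun m hm => by
    have e : (k * t) ^ (2 * m + 1) * t = (k * t) ^ (2 * m) * k := by
      rw [pow_succ]; simp [mul_assoc, tt]
    refine ⟨(k * t) ^ (2 * m + 1) * t, e ▸ mul_mem (h1 m) hk, fun h0 => k1 ?_, ?_,
      (h3 _ hm).mul_right (Commute.refl t)⟩
    · have h5 : Commute t (k * t) := by
        have := ((Commute.refl (k * t)).pow_left (2 * m + 1)).inv_left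
        rwa [inv_eq_of_mul_eq_one_right h0] at this
      have h6 : (k * t) ^ 2 = 1 := by rw [sq, mul_assoc k, h5.eq, mul_assoc k, tt, mul_one, kk]
      rwa [pow_succ, pow_mul, h6, one_pow, one_mul, mul_assoc, tt, mul_one] at h0
    · rw [mul_assoc, ← mul_assoc t, h2]; simp [mul_assoc, tt]
  rcases Nat.even_or_odd' (orderOf (k * t)) with ⟨j, hj | hj⟩
  · have h5 : (k * t) ^ j * (k * t) ^ j = 1 := by rw [← pow_add, ← two_mul, ← hj, pow_orderOf_eq_one]
    rcases Nat.even_or_odd' j with ⟨m, rfl | rfl⟩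
    · have h0 := orderOf_pos (k * t)
      exact ⟨_, h1 m, pow_ne_one_of_lt_orderOf (by omega) (by omega), h5, h3 _ h5⟩
    · exact h4 m h5
  · exact h4 j (by rw [← hj, pow_orderOf_eq_one, mul_one])

namespace Rng

variable [CharP F 2] {x : ℕ → F → G} {t : G} {M : ℕ → Subgroup G} {E : Type*} [CommRing E]
  {ι : F →+* E} {τ : E ≃+* E} {y : ℕ → E → G} (h : Rng T x t M ι τ y)
include h

omit h in
theorem two (ι : F →+* E) (e : E) : e + e = 0 := by
  have : (2 : E) = 0 := by rw [← map_ofNat ι 2, CharTwo.two_eq_zero, map_zero]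
  linear_combination e * this

theorem τι (a : F) : τ (ι a) = ι a := (h.fix _).2 ⟨a, rfl⟩

theorem dec {ε : E} (hε : τ ε = ε + 1) (e : E) : ∃ a b, e = ι a + ι b * ε := by
  obtain ⟨b, hb⟩ := (h.fix (e + τ e)).1 (by rw [map_add, h.ττ, add_comm])
  obtain ⟨a, ha⟩ := (h.fix (e + ι b * ε)).1 (by
    rw [map_add, map_mul, h.τι, hε]
    linear_combination hb + two ι (τ e))
  exact ⟨a, b, by linear_combination -ha - two ι (ι b * ε)⟩

theorem finite [Finite G] : Finite E :=
  Finite.of_injective _ (h.inj 0 (by have := T.N_pos; omega))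

theorem card [Nontrivial E] : Nat.card E = Nat.card F ^ 2 := by
  obtain ⟨ε, hε⟩ := h.eps
  rw [sq, ← Nat.card_prod]
  refine (Nat.card_eq_of_bijective (fun p : F × F => ι p.1 + ι p.2 * ε) ⟨?_, fun e => ?_⟩).symm
  · rintro ⟨a, b⟩ ⟨a', b'⟩ e
    have e' := congrArg τ e
    simp only [map_add, map_mul, h.τι, hε] at e e'
    obtain rfl : b = b' := ι.injective (by linear_combination e' - e)
    obtain rfl : a = a' := ι.injective (by linear_combination e)
    rfl
  · obtain ⟨a, b, rfl⟩ := h.dec hε e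
    exact ⟨(a, b), rfl⟩

theorem dich [Nontrivial E] : IsField E ∨ ∃ e : E, e * e = e ∧ τ e = e + 1 := by
  by_cases h0 : ∀ e : E, e ≠ 0 → e * τ e ≠ 0
  · refine Or.inl ⟨exists_pair_ne E, mul_comm, fun {e} he => ?_⟩
    obtain ⟨n, hn⟩ := (h.fix (e * τ e)).1 (by rw [map_mul, h.ττ, mul_comm])
    have hn0 : n ≠ 0 := fun e0 => h0 e he (by rw [← hn, e0, map_zero])
    exact ⟨τ e * ι n⁻¹, by rw [← mul_assoc, ← hn, ← map_mul, mul_inv_cancel₀ hn0, map_one]⟩
  · push Not at h0
    obtain ⟨e, he, h1⟩ := h0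
    obtain ⟨b, hb⟩ := (h.fix (e + τ e)).1 (by rw [map_add, h.ττ, add_comm])
    have hb0 : b ≠ 0 := fun e0 => by
      rw [e0, map_zero] at hb
      obtain ⟨a, rfl⟩ := (h.fix e).1 (by linear_combination -hb - two ι e)
      rw [h.τι, ← map_mul, map_eq_zero, mul_self_eq_zero] at h1
      exact he (by rw [h1, map_zero])
    have h2 : ι b⁻¹ * ι b = 1 := by rw [← map_mul, inv_mul_cancel₀ hb0, map_one]
    refine Or.inr ⟨ι b⁻¹ * e, ?_, ?_⟩
    · linear_combination (ι b⁻¹ * e) * h2 - (ι b⁻¹ * ι b⁻¹ * e) * hb - ι b⁻¹ * ι b⁻¹ * h1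
    · rw [map_mul, h.τι]
      linear_combination h2 - ι b⁻¹ * hb - two ι (ι b⁻¹ * e)

theorem zero {r : ℕ} (hr : r < 2 * T.N) : y r 0 = 1 := by
  have := h.add r hr 0 0
  rwa [add_zero, mul_eq_left] at this

theorem sq {r : ℕ} (hr : r < 2 * T.N) (e : E) : y r e * y r e = 1 := by
  rw [h.add r hr, two ι, h.zero hr]

theorem nontrivial (hn : IsND x T) : Nontrivial E := by
  have hr : 0 < 2 * T.N := by have := T.N_pos; omega
  refine nontrivial_of_ne (ι 1) 0 fun e => one_ne_zero (α := F) (hn.eq_zero_of_x_eq_one hr ?_)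
  rw [← h.ext 0 hr, e, h.zero hr]

theorem commute (H : SL T) {r s : ℕ} (hr : r < 2 * T.N) (hs : s < 2 * T.N) (hn : s ≠ D.neg r)
    {e f : E} (ef : e * f = 0) : Commute (y r e) (y s f) := by
  rcases H.tri_cases hr hs with p | p | ⟨k, p⟩
  · exact absurd p hn
  · exact h.com r hr s hs p e f
  · have := h.sum r s k p e f
    rw [ef, h.zero p.hk, mul_one] at this
    exact this.symm

/-- the split case: the two factors commute -/
theorem commute' (H : SL T) {r s : ℕ} (hr : r < 2 * T.N) (hs : s < 2 * T.N) {e f g : E}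
    (eg : e * g = 0) (fg : f * g = f) : Commute (y r e) (y s f) := by
  have ef : e * f = 0 := by rw [← fg, mul_left_comm, eg, mul_zero]
  by_cases hn : s = D.neg r
  · obtain ⟨c, d, p⟩ := H.exists_dec hs
    have h1 : y s f = (y c f * y d g)⁻¹ * (y d g * y c f) := by rw [h.sum c d s p, fg]; group
    have h2 := h.commute H hr p.hr (fun e => p.ne_left (hn.trans e.symm)) ef
    have h3 := h.commute H hr p.hs (fun e => p.ne_right (hn.trans e.symm)) eg
    rw [h1]
    exact (h2.mul_right h3).inv_right.mul_right (h3.mul_right h2)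
  · exact h.commute H hr hs hn ef

theorem isSt0_split (H : SL T) {e : E} (he : e * e = e) : IsSt0 D fun r a => y r (ι a * e) :=
  H.isSt0 (fun r hr a b => by rw [h.add r hr, map_add, add_mul])
    (fun r hr s hs p a b => h.com r hr s hs p _ _) fun r s k p a b => by
      rw [h.sum r s k p, map_mul]; congr 2; linear_combination (ι a * ι b) * he

end Rng

theorem Rng.isSt0 [CharP F 2] {x : ℕ → F → G} {t : G} {M : ℕ → Subgroup G} {E : Type*} [Field E]
    [CharP E 2] {ι : F →+* E} {τ : E ≃+* E} {y : ℕ → E → G} (h : Rng T x t M ι τ y) (H : SL T) :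
    IsSt0 D y := H.isSt0 h.add h.com h.sum

theorem Dbl.cases [CharP F 2] [Finite F] {x : ℕ → F → G} {t : G} {M : ℕ → Subgroup G}
    {N : ℕ → ℕ → Subgroup G} {O : Subgroup G} (h : Dbl T x t M N O) :
    (∃ (E : Type u) (_ : Field E) (ι : F →+* E) (τ : E ≃+* E) (y : ℕ → E → G),
      Rng T x t M ι τ y) ∨
    ∃ (E : Type u) (_ : CommRing E) (ι : F →+* E) (τ : E ≃+* E) (y : ℕ → E → G) (e : E),
      Rng T x t M ι τ y ∧ e * e = e ∧ τ e = e + 1 := by
  obtain ⟨E, _, ι, τ, y, R⟩ := h.exists_rng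
  have := R.nontrivial h.nd
  rcases R.dich with hE | ⟨e, he⟩
  · exact Or.inl ⟨E, hE.toField, ι, τ, y, R⟩
  · exact Or.inr ⟨E, _, ι, τ, y, e, R, he⟩

end Cfsg.Agent.SLE
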