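import Mathlib
import Cfsg.Agent.SLE.InvA

/-! Involutions in normal form: conjugation along the filtration, fixed points in `U`. -/

set_option autoImplicit false
set_option linter.unusedSectionVars false

namespace Cfsg.Agent.SLE

open Cfsg.Lie Cfsg.Agent.Chev Subgroup

variable {D : ChevalleyDatum} {T : RootTable D}

variable {F : Type*} [Field F] {G : Type*} [Group G]

/-- An involution in normal form whose diagram symmetry moves roots to orthogonal roots. -/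
structure Iv (T : RootTable D) (x : ℕ → F → G) (d : G) (π : ℕ → ℕ) (c : ℕ → F) (σ : F ≃+* F) :
    Prop where
  sl : SL T
  st : IsSt D x
  nd : IsND x T
  nf : Nf T x d π c σ
  dd : d * d = 1
  orth : ∀ r < 2 * T.N, π r ≠ r → D.pairing r (π r) = 0

/-- The basic fixed elements. -/
noncomputable def zz (x : ℕ → F → G) (π : ℕ → ℕ) (c : ℕ → F) (σ : F ≃+* F) (r : ℕ) (a : F) : G :=
  if π r = r then x r a else x r a * x (π r) (c r * σ a)

/-- The parameters of the basic fixed elements. -/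
def prm (π : ℕ → ℕ) (c : ℕ → F) (σ : F ≃+* F) (r : ℕ) : Set F := {a | π r = r → c r * σ a = a}

variable [CharP F 2] {x : ℕ → F → G} {d : G} {π : ℕ → ℕ} {c : ℕ → F} {σ : F ≃+* F}

namespace Iv

variable (h : Iv T x d π c σ)
include h

theorem st0 : IsSt0 D x := h.st.toIsSt0

theorem sym : Sym T π := h.nf.sym

theorem d_inv : d⁻¹ = d := inv_eq_of_mul_eq_one_right h.dd

theorem twice {r : ℕ} (hr : r < 2 * T.N) (a : F) : c (π r) * σ (c r * σ a) = a := by
  have e1 := h.nf.conj r hr a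
  have e2 := h.nf.conj (π r) (h.sym.lt r hr) (c r * σ a)
  rw [← e1, h.sym.inv r hr] at e2
  have e3 : d * (d * x r a * d⁻¹) * d⁻¹ = (d * d) * x r a * (d * d)⁻¹ := by group
  rw [e3, h.dd, one_mul, inv_one, mul_one] at e2
  exact (h.nd.x_inj h.st0 hr e2).symm

theorem cc {r : ℕ} (hr : r < 2 * T.N) : c (π r) * σ (c r) = 1 := by
  simpa using h.twice hr 1

theorem σσ (a : F) : σ (σ a) = a := by
  have hr : 0 < 2 * T.N := by have := T.N_pos; omega
  have e := h.twice hr a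
  rwa [map_mul, ← mul_assoc, h.cc hr, one_mul] at e

theorem exists_half (hσ : ∃ e, σ e ≠ e) : ∃ e : F, e + σ e = 1 := by
  obtain ⟨e, he⟩ := hσ
  have h0 : e + σ e ≠ 0 := fun h0 => he (by
    rw [add_eq_zero_iff_eq_neg, CharTwo.neg_eq] at h0; exact h0.symm)
  refine ⟨e / (e + σ e), ?_⟩
  rw [map_div₀, map_add, h.σσ, add_comm (σ e) e, ← add_div, div_self h0]

theorem conj_mem {S : Set ℕ} (hS : Idl T π S) {f : G} (hf : f ∈ XS x S) : d * f * d⁻¹ ∈ XS x S :=
  conj_mem_of_XS (fun r hr t => by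
    rw [h.nf.conj r (hS.pos hr).2]; exact mem_XS (hS.inv r hr) _) hf

theorem com {r : ℕ} (hr : r < 2 * T.N) (a b : F) : Commute (x r a) (x (π r) b) := by
  refine h.sl.com h.st0 hr (h.sym.lt r hr) ?_ a b
  by_cases e : π r = r
  · rw [e, T.pairing_self r hr]; norm_num
  · rw [h.orth r hr e]

theorem add {r : ℕ} (hr : r < 2 * T.N) (a b : F) : x r a * x r b = x r (a + b) :=
  h.st0.add r (T.lt_iff.2 hr) a b

theorem sq {r : ℕ} (hr : r < 2 * T.N) (a : F) : x r a * x r a = 1 :=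
  h.st0.x_one_sq (T.lt_iff.2 hr) a

theorem x_inv {r : ℕ} (hr : r < 2 * T.N) (a : F) : (x r a)⁻¹ = x r a :=
  h.st0.x_inv (T.lt_iff.2 hr) a

theorem zz_comm {r : ℕ} (hr : r < 2 * T.N) {a : F} (ha : a ∈ prm π c σ r) :
    d * zz x π c σ r a * d⁻¹ = zz x π c σ r a := by
  unfold zz
  split_ifs with e
  · rw [h.nf.conj r hr, e, ha e]
  · have e1 : d * (x r a * x (π r) (c r * σ a)) * d⁻¹ =
        d * x r a * d⁻¹ * (d * x (π r) (c r * σ a) * d⁻¹) := by group
    rw [e1, h.nf.conj r hr, h.nf.conj _ (h.sym.lt r hr), h.sym.inv r hr, h.twice hr,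
      (h.com hr _ _).eq]

theorem zz_mem_cent {r : ℕ} (hr : r < 2 * T.N) {a : F} (ha : a ∈ prm π c σ r) :
    zz x π c σ r a ∈ centralizer {d} := by
  rw [mem_centralizer_singleton_iff]
  have := h.zz_comm hr ha
  rw [mul_inv_eq_iff_eq_mul] at this
  exact this.symm

omit h in
theorem zz_mem {S : Set ℕ} (hS : Idl T π S) {r : ℕ} (hr : r ∈ S) (a : F) :
    zz x π c σ r a ∈ XS x S := by
  unfold zz
  split_ifs
  · exact mem_XS hr a
  · exact mul_mem (mem_XS hr a) (mem_XS (hS.inv r hr) _)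

variable {S S' : Set ℕ} {r : ℕ}

/-- the conjugation step -/
theorem conj_step (hp : Peel T π S S' r) {u : G} (hu : u ∈ Us D x) (a : F) {f : G}
    (hf : f ∈ XS x S') :
    ∃ f' ∈ XS x S', x r a * (u * (x r a * x (π r) (c r * σ a) * f) * d) * (x r a)⁻¹ =
      u * f' * d := by
  have hN := hp.small.norm h.sl h.st0
  refine ⟨u⁻¹ * x r a * u * (x r a)⁻¹ * (x (π r) (c r * σ a) * f * (x (π r) (c r * σ a))⁻¹),
    mul_mem (hp.comm h.sl h.st0 hp.mem a hu) (conj_mem_of_mem_normalizer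
      (hN (T.mem_Us' hp.pos'.1 hp.pos'.2 _)) hf), ?_⟩
  have e1 := h.nf.conj r hp.pos.2 a
  have e2 := h.sq hp.pos.2 a
  rw [← e1]
  calc x r a * (u * (x r a * (d * x r a * d⁻¹) * f) * d) * (x r a)⁻¹
      = x r a * u * (x r a)⁻¹ * (x r a * x r a) * (d * x r a * d⁻¹ * f * d * (x r a)⁻¹) := by group
    _ = _ := by rw [e2]; group

/-- the leading term of an involution -/
theorem lead (hp : Peel T π S S' r) {S₀ : Set ℕ} (h1 : S₀ ⊆ Pos T)
    (h2 : ∀ r s k, Sm T r s k → r ∈ S₀ → s ∈ S₀ → k ∈ S₀) {u : G} (hu : u ∈ XS x S₀)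
    (hd : d * u * d⁻¹ = u) {p : G} (hp' : p ∈ XS x {r, π r}) {f : G} (hf : f ∈ XS x S')
    (e : u * (p * f) * d * (u * (p * f) * d) = 1) :
    S₀ ∪ S' ⊆ Pos T ∧ T.Closed (S₀ ∪ S') ∧ p * (d * p * d⁻¹) ∈ XS x (S₀ ∪ S') := by
  have hpos : S₀ ∪ S' ⊆ Pos T := Set.union_subset h1 hp.small.pos
  refine ⟨hpos, h.sl.closed_of_sm hpos ?_, ?_⟩
  · rintro a b k m (ha | ha) (hb | hb)
    · exact Or.inl (h2 a b k m ha hb)
    · exact Or.inr (hp.small.sum b a k m.symm hb (h1 ha).1)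
    · exact Or.inr (hp.small.sum a b k m ha (h1 hb).1)
    · exact Or.inr (hp.small.sum a b k m ha (hp.small.pos hb).1)
  have hR : ∀ a ∈ ({r, π r} : Set ℕ), a ∈ S := by
    rintro a (rfl | rfl)
    · exact hp.mem
    · exact hp.mem'
  have hN : XS x {r, π r} ≤ normalizer (XS x (S₀ ∪ S') : Set G) := by
    refine h.st0.XS_le_normalizer T (fun a ha => (hp.big.pos (hR a ha)).2)
      (fun s hs => (hpos hs).2) ?_ ?_
    · intro a ha s hs
      have := T.neg_lt_N (hp.big.pos (hR a ha)).1 (hp.big.pos (hR a ha)).2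
      have := (hpos hs).1
      omega
    · intro a ha s hs k hk i j hi hj e
      have ha' := hp.big.pos (hR a ha)
      exact Or.inr (hp.sum a s k (h.sl.sm_of_comb ha'.1 ha'.2 (hpos hs).1 (hpos hs).2 hk hi hj e)
        (hR a ha) (hpos hs).1)
  have m1 : u ∈ XS x (S₀ ∪ S') := XS_mono Set.subset_union_left hu
  have m2 : f ∈ XS x (S₀ ∪ S') := XS_mono Set.subset_union_right hf
  have m3 : d * f * d⁻¹ ∈ XS x (S₀ ∪ S') := XS_mono Set.subset_union_right (h.conj_mem hp.small hf)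
  have e1 : u * (p * f) * d * (u * (p * f) * d) =
      u * (p * f * (d * u * d⁻¹) * p⁻¹) * (p * (d * p * d⁻¹)) * (d * f * d⁻¹) * (d * d) := by group
  rw [e1, hd, h.dd, mul_one] at e
  have e2 : p * (d * p * d⁻¹) = (u * (p * f * u * p⁻¹))⁻¹ * (d * f * d⁻¹)⁻¹ := by
    rw [eq_mul_inv_iff_mul_eq, eq_inv_iff_mul_eq_one]
    have := (mul_eq_one_comm.1 (show u * (p * f * u * p⁻¹) *
      (p * (d * p * d⁻¹) * (d * f * d⁻¹)) = 1 by rw [← e]; group))
    exact this
  rw [e2]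
  refine mul_mem (inv_mem (mul_mem m1 ?_)) (inv_mem m3)
  rw [mul_assoc p f u]
  exact conj_mem_of_mem_normalizer (hN hp') (mul_mem m2 m1)

/-- Conjugating an involution of `U d` along the filtration. -/
theorem conj_gen {S₀ : Set ℕ} (h1 : S₀ ⊆ Pos T)
    (h2 : ∀ r s k, Sm T r s k → r ∈ S₀ → s ∈ S₀ → k ∈ S₀) (h3 : ∀ r ∈ S₀, π r = r)
    (h4 : ∀ u ∈ XS x S₀, d * u * d⁻¹ = u)
    (h5 : ∀ r ∈ Pos T, π r = r → r ∈ S₀ ∨ ∃ e : F, e + σ e = 1) {S : Set ℕ} (hS : Idl T π S) :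
    ∀ u ∈ XS x S₀, ∀ f ∈ XS x S, u * f * d * (u * f * d) = 1 →
      ∃ v ∈ Us D x, ∃ u' ∈ XS x S₀, v * (u * f * d) * v⁻¹ = u' * d := by
  have hU : XS x S₀ ≤ Us D x := by rw [Us_eq_Pos T]; exact XS_mono h1
  refine h.sym.idl_induction (P := fun S => ∀ u ∈ XS x S₀, ∀ f ∈ XS x S,
    u * f * d * (u * f * d) = 1 → ∃ v ∈ Us D x, ∃ u' ∈ XS x S₀, v * (u * f * d) * v⁻¹ = u' * d)
    ?_ ?_ hS
  · intro u hu f hf _
    rw [XS_empty, mem_bot] at hf
    exact ⟨1, one_mem _, u, hu, by simp [hf]⟩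
  intro S S' r hp ih u hu f hf e
  have hr := hp.pos
  have step : ∀ a, ∀ f' ∈ XS x S', f = x r a * x (π r) (c r * σ a) * f' →
      ∃ v ∈ Us D x, ∃ u' ∈ XS x S₀, v * (u * f * d) * v⁻¹ = u' * d := by
    rintro a f' hf' rfl
    obtain ⟨f'', hf'', e'⟩ := h.conj_step hp (hU hu) a hf'
    obtain ⟨v, hv, u', hu', e''⟩ := ih u hu f'' hf'' (by
      rw [← e']
      calc _ = x r a * (u * (x r a * x (π r) (c r * σ a) * f') * d *
          (u * (x r a * x (π r) (c r * σ a) * f') * d)) * (x r a)⁻¹ := by group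
        _ = 1 := by rw [e]; group)
    refine ⟨v * x r a, mul_mem hv (T.mem_Us' hr.1 hr.2 a), u', hu', ?_⟩
    rw [← e'', ← e']
    group
  by_cases hπ : π r = r
  · obtain ⟨a, f', hf', rfl⟩ := hp.dec_one h.sl h.st0 hπ hf
    by_cases h0 : r ∈ S₀
    · have := ih (u * x r a) (mul_mem hu (mem_XS h0 a)) f' hf' (by rw [← e]; group)
      rwa [mul_assoc u] at this
    · obtain ⟨ε, hε⟩ := (h5 r hr hπ).resolve_left h0
      obtain ⟨k1, k2, k3⟩ := h.lead hp h1 h2 hu (h4 u hu) (mem_XS (Or.inl rfl) a) hf' e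
      rw [h.nf.conj r hr.2, hπ, h.add hr.2] at k3
      have k4 := uniq_one h.sl h.nd h.st0 k1 k2 hr (fun m => m.elim h0 hp.not_mem) k3
      rw [add_eq_zero_iff_eq_neg, CharTwo.neg_eq] at k4
      refine step (ε * a) f' hf' ?_
      rw [hπ, h.add hr.2, map_mul, mul_left_comm, ← k4, ← add_mul, hε, one_mul]
  · obtain ⟨a, b, f', hf', rfl⟩ := hp.dec_two h.sl h.st0 hπ hf
    obtain ⟨k1, k2, k3⟩ := h.lead hp h1 h2 hu (h4 u hu)
      (mul_mem (mem_XS (Or.inl rfl) a) (mem_XS (Or.inr rfl) b)) hf' e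
    have e1 : x r a * x (π r) b * (d * (x r a * x (π r) b) * d⁻¹) =
        x r (a + c (π r) * σ b) * x (π r) (b + c r * σ a) := by
      calc _ = x r a * x (π r) b * (d * x r a * d⁻¹) * (d * x (π r) b * d⁻¹) := by group
        _ = _ := by
          rw [h.nf.conj r hr.2, h.nf.conj _ hp.pos'.2, h.sym.inv r hr.2, mul_assoc (x r a),
            h.add hp.pos'.2, mul_assoc, ← (h.com hr.2 _ _).eq, ← mul_assoc, h.add hr.2]
    rw [e1] at k3
    have k4 := (uniq_two h.sl h.nd h.st0 k1 k2 hr hp.pos' hπ (h.orth r hr.2 hπ).ge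
      (fun m => m.elim (fun m => hπ (h3 r m)) hp.not_mem)
      (fun m => m.elim (fun m => hπ (by rw [← h3 _ m, h.sym.inv r hr.2])) hp.not_mem') k3).2
    rw [add_eq_zero_iff_eq_neg, CharTwo.neg_eq] at k4
    exact step a f' hf' (by rw [k4])

theorem zz_inj (hp : Peel T π S S' r) {a b : F}
    (e : (zz x π c σ r a)⁻¹ * zz x π c σ r b ∈ XS x S') : a = b := by
  have hr := hp.pos
  have k : a + b = 0 := by
    unfold zz at e
    split_ifs at e with hπ
    · rw [h.x_inv hr.2, h.add hr.2] at e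
      exact uniq_one h.sl h.nd h.st0 hp.small.pos (hp.small.closed h.sl) hr hp.not_mem e
    · rw [mul_inv_rev, h.x_inv hr.2, h.x_inv hp.pos'.2, mul_assoc, ← mul_assoc (x r a), h.add hr.2,
        ← mul_assoc, ← (h.com hr.2 _ _).eq, mul_assoc, h.add hp.pos'.2] at e
      exact (uniq_two h.sl h.nd h.st0 hp.small.pos (hp.small.closed h.sl) hr hp.pos' hπ
        (h.orth r hr.2 hπ).ge hp.not_mem hp.not_mem' e).1
  rwa [add_eq_zero_iff_eq_neg, CharTwo.neg_eq] at k

/-- the leading term of a fixed element -/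
theorem fix_step (hp : Peel T π S S' r) {u : G} (hu : u ∈ XS x S ⊓ centralizer {d}) :
    ∃ a ∈ prm π c σ r, ∃ u' ∈ XS x S' ⊓ centralizer {d}, u = zz x π c σ r a * u' := by
  have hr := hp.pos
  obtain ⟨hu1, hu2⟩ := hu
  have hu3 : d * u * d⁻¹ = u := by
    have := mem_centralizer_singleton_iff.1 hu2
    rw [← this]; group
  have key : ∀ p f, f ∈ XS x S' → u = p * f → p⁻¹ * (d * p * d⁻¹) ∈ XS x S' := by
    rintro p f hf rfl
    have : p⁻¹ * (d * p * d⁻¹) = f * (d * f * d⁻¹)⁻¹ := by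
      calc _ = p⁻¹ * (d * (p * f) * d⁻¹) * (d * f * d⁻¹)⁻¹ := by group
        _ = _ := by rw [hu3]; group
    rw [this]
    exact mul_mem hf (inv_mem (h.conj_mem hp.small hf))
  have fin : ∀ a ∈ prm π c σ r, ∀ f ∈ XS x S', u = zz x π c σ r a * f →
      ∃ a ∈ prm π c σ r, ∃ u' ∈ XS x S' ⊓ centralizer {d}, u = zz x π c σ r a * u' := by
    intro a ha f hf e
    refine ⟨a, ha, f, ⟨hf, ?_⟩, e⟩
    have : f = (zz x π c σ r a)⁻¹ * u := by rw [e]; group
    rw [this]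
    exact (centralizer {d}).mul_mem ((centralizer {d}).inv_mem (h.zz_mem_cent hr.2 ha)) hu2
  by_cases hπ : π r = r
  · obtain ⟨a, f, hf, e⟩ := hp.dec_one h.sl h.st0 hπ hu1
    have k := key _ f hf e
    rw [h.nf.conj r hr.2, hπ, h.x_inv hr.2, h.add hr.2] at k
    have k4 := uniq_one h.sl h.nd h.st0 hp.small.pos (hp.small.closed h.sl) hr hp.not_mem k
    rw [add_eq_zero_iff_eq_neg, CharTwo.neg_eq] at k4
    exact fin a (fun _ => k4.symm) f hf (by rw [zz, if_pos hπ, e])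
  · obtain ⟨a, b, f, hf, e⟩ := hp.dec_two h.sl h.st0 hπ hu1
    have k := key _ f hf e
    have e1 : (x r a * x (π r) b)⁻¹ * (d * (x r a * x (π r) b) * d⁻¹) =
        x r (a + c (π r) * σ b) * x (π r) (b + c r * σ a) := by
      calc _ = (x r a * x (π r) b)⁻¹ * (d * x r a * d⁻¹) * (d * x (π r) b * d⁻¹) := by group
        _ = _ := by
          rw [(h.com hr.2 a b).eq, mul_inv_rev, h.x_inv hr.2, h.x_inv hp.pos'.2,
            h.nf.conj r hr.2, h.nf.conj _ hp.pos'.2, h.sym.inv r hr.2, mul_assoc (x r a),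
            h.add hp.pos'.2, mul_assoc, ← (h.com hr.2 _ _).eq, ← mul_assoc, h.add hr.2]
    rw [e1] at k
    have k4 := (uniq_two h.sl h.nd h.st0 hp.small.pos (hp.small.closed h.sl) hr hp.pos' hπ
      (h.orth r hr.2 hπ).ge hp.not_mem hp.not_mem' k).2
    rw [add_eq_zero_iff_eq_neg, CharTwo.neg_eq] at k4
    exact fin a (fun m => absurd m hπ) f hf (by rw [zz, if_neg hπ, e, k4])

theorem card_step (hp : Peel T π S S' r) :
    Nat.card ↥(XS x S ⊓ centralizer {d}) =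
      Nat.card ↥(prm π c σ r) * Nat.card ↥(XS x S' ⊓ centralizer {d}) := by
  rw [← Nat.card_prod]
  symm
  refine Nat.card_congr (Equiv.ofBijective
    (fun p : ↥(prm π c σ r) × ↥(XS x S' ⊓ centralizer {d}) =>
      (⟨zz x π c σ r p.1 * p.2, mul_mem (zz_mem hp.big hp.mem _) (XS_mono hp.sub p.2.2.1),
        mul_mem (h.zz_mem_cent hp.pos.2 p.1.2) p.2.2.2⟩ : ↥(XS x S ⊓ centralizer {d}))) ⟨?_, ?_⟩)
  · rintro ⟨⟨a, ha⟩, ⟨u, hu⟩⟩ ⟨⟨b, hb⟩, ⟨v, hv⟩⟩ e
    have e' : zz x π c σ r a * u = zz x π c σ r b * v := congrArg Subtype.val e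
    have e1 : a = b := h.zz_inj hp (by
      have : (zz x π c σ r a)⁻¹ * zz x π c σ r b = u * v⁻¹ := by
        rw [inv_mul_eq_iff_eq_mul, ← mul_assoc, e']; group
      rw [this]
      exact mul_mem hu.1 (inv_mem hv.1))
    subst e1
    have e2 : u = v := mul_left_cancel e'
    subst e2
    rfl
  · rintro ⟨u, hu⟩
    obtain ⟨a, ha, u', hu', e⟩ := h.fix_step hp hu
    exact ⟨⟨⟨a, ha⟩, ⟨u', hu'⟩⟩, Subtype.ext e.symm⟩

theorem fix_le {L : Subgroup G}
    (hL : ∀ r ∈ Pos T, ∀ a ∈ prm π c σ r, zz x π c σ r a ∈ L) :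
    Us D x ⊓ centralizer {d} ≤ L := by
  rw [Us_eq_Pos T]
  refine h.sym.idl_induction (P := fun S => XS x S ⊓ centralizer {d} ≤ L) ?_ ?_ h.sym.idl_Pos
  · rw [XS_empty, bot_inf_eq]; exact bot_le
  · intro S S' r hp ih u hu
    obtain ⟨a, ha, u', hu', rfl⟩ := h.fix_step hp hu
    exact mul_mem (hL r hp.pos a ha) (ih hu')

/-- the number of fixed points in `U` -/
theorem card_fix {m : ℕ}
    (hm : ∀ r ∈ Pos T, π r = r → Nat.card ↥(prm π c σ r) ^ 2 = Nat.card F ^ (m + 1)) :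
    Nat.card ↥(Us D x ⊓ centralizer {d}) ^ 2 =
      Nat.card F ^ (T.N + m * {r | T.N ≤ r ∧ r < 2 * T.N ∧ π r = r}.ncard) := by
  have key : ∀ S, Idl T π S → Nat.card ↥(XS x S ⊓ centralizer {d}) ^ 2 =
      Nat.card F ^ (S.ncard + m * {r | r ∈ S ∧ π r = r}.ncard) := by
    intro S hS
    refine h.sym.idl_induction (P := fun S => Nat.card ↥(XS x S ⊓ centralizer {d}) ^ 2 =
      Nat.card F ^ (S.ncard + m * {r | r ∈ S ∧ π r = r}.ncard)) ?_ ?_ hS
    · rw [XS_empty, bot_inf_eq]; simp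
    intro S S' r hp ih
    rw [h.card_step hp, mul_pow, ih]
    have hf : {a | a ∈ S' ∧ π a = a}.Finite := hp.small.finite.subset fun a ha => ha.1
    by_cases hπ : π r = r
    · have e1 : S = insert r S' := by
        ext a; rw [hp.mem_iff, Set.mem_insert_iff, hπ]; tauto
      have e2 : {a | a ∈ S ∧ π a = a} = insert r {a | a ∈ S' ∧ π a = a} := by
        ext a
        simp only [Set.mem_ofPred_eq, Set.mem_insert_iff, hp.mem_iff (a := a), hπ]
        constructor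
        · tauto
        · rintro (rfl | m)
          · exact ⟨Or.inl rfl, hπ⟩
          · tauto
      rw [e2, Set.ncard_insert_of_notMem (fun m => hp.not_mem m.1) hf, hm r hp.pos hπ, ← pow_add]
      conv_rhs => rw [e1, Set.ncard_insert_of_notMem hp.not_mem hp.small.finite]
      congr 1
      ring
    · have e1 : S = insert r (insert (π r) S') := by
        ext a; rw [hp.mem_iff, Set.mem_insert_iff, Set.mem_insert_iff]
      have e2 : {a | a ∈ S ∧ π a = a} = {a | a ∈ S' ∧ π a = a} := by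
        ext a
        simp only [Set.mem_ofPred_eq, hp.mem_iff (a := a)]
        constructor
        · rintro ⟨rfl | rfl | m, m'⟩
          · exact absurd m' hπ
          · exact absurd (by rw [← m', h.sym.inv r hp.pos.2]) hπ
          · exact ⟨m, m'⟩
        · tauto
      have e3 : prm π c σ r = Set.univ := Set.eq_univ_of_forall fun a m => absurd m hπ
      rw [e2, e3, Nat.card_univ, ← pow_add]
      conv_rhs => rw [e1, Set.ncard_insert_of_notMem (fun m => m.elim (fun m => hπ m.symm)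
        hp.not_mem) (hp.small.finite.insert _),
        Set.ncard_insert_of_notMem hp.not_mem' hp.small.finite]
      congr 1
      ring
  rw [Us_eq_Pos T, key _ h.sym.idl_Pos]
  have e1 : (Pos T).ncard = T.N := by
    have : Pos T = Set.Ico T.N (2 * T.N) := rfl
    rw [this, Set.ncard_eq_toFinset_card', Set.toFinset_Ico, Nat.card_Ico]
    omega
  have e2 : {r | r ∈ Pos T ∧ π r = r} = {r | T.N ≤ r ∧ r < 2 * T.N ∧ π r = r} := by
    ext r; simp only [Pos, Set.mem_ofPred_eq, and_assoc]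
  rw [e1, e2]

theorem card_prm_free [Finite F] (hσ : ∃ e, σ e ≠ e) {r : ℕ} (hr : r < 2 * T.N) (hπ : π r = r) :
    Nat.card ↥(prm π c σ r) ^ 2 = Nat.card F := by
  obtain ⟨ε, hε⟩ := h.exists_half hσ
  let φ : F →+ F := AddMonoidHom.mk' (fun a => a + c r * σ a) (fun a b => by
    rw [map_add]; ring)
  have hφ (a : F) : φ a = a + c r * σ a := rfl
  have e1 : (φ.ker : Set F) = prm π c σ r := by
    ext a
    rw [SetLike.mem_coe, AddMonoidHom.mem_ker, hφ, add_eq_zero_iff_eq_neg, CharTwo.neg_eq]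
    exact ⟨fun e _ => e.symm, fun e => (e hπ).symm⟩
  have e2 : φ.range = φ.ker := by
    ext a
    rw [AddMonoidHom.mem_ker, hφ, add_eq_zero_iff_eq_neg, CharTwo.neg_eq]
    constructor
    · rintro ⟨b, rfl⟩
      have := h.twice hr b
      rw [hπ] at this
      rw [hφ, map_add, mul_add, this, add_comm]
    · intro e
      exact ⟨ε * a, by rw [hφ, map_mul, mul_left_comm, ← e, ← add_mul, hε, one_mul]⟩
  have e3 := φ.ker.card_mul_index
  rw [AddSubgroup.index_ker, e2] at e3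
  rw [← e1, ← e3, _root_.sq]
  rfl

end Iv

end Cfsg.Agent.SLE
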