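import Mathlib
import Cfsg.Agent.SLE.InvB

/-! Graph involutions and twisted fixed points. -/

set_option autoImplicit false
set_option linter.unusedSectionVars false

namespace Cfsg.Agent.SLE

open Cfsg.Lie Cfsg.Agent.Chev Subgroup

variable {D : ChevalleyDatum} {T : RootTable D}

variable {F : Type*} [Field F] {G : Type*} [Group G]

/-- The root elements as elements of the subgroup that they generate. -/
noncomputable def inGs (D : ChevalleyDatum) (y : ℕ → F → G) (r : ℕ) (t : F) : ↥(Gs D y) :=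
  if h : r < D.nroots then ⟨y r t, mem_Gs h t⟩ else 1

section InGs

variable {y : ℕ → F → G}

theorem coe_inGs (r : ℕ) (hr : r < D.nroots) (t : F) :
    y r t = (Gs D y).subtype (inGs D y r t) := by
  rw [inGs, dif_pos hr]; rfl

theorem Gs_inGs : Gs D (inGs D y) = ⊤ := by
  apply Subgroup.map_injective (Gs D y).subtype_injective
  rw [map_Gs, ← MonoidHom.range_eq_map, Subgroup.range_subtype]
  exact (XS_congr (D := D) coe_inGs fun _ h => h).symm

theorem isSt_inGs (T : RootTable D) (h : IsSt D y) : IsSt D (inGs D y) :=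
  IsSt.of_injective (Gs D y).subtype (Gs D y).subtype_injective (h.congr coe_inGs T)

theorem isND_inGs (h : IsND y T) : IsND (inGs D y) T :=
  IsND.of_injective (Gs D y).subtype (Gs D y).subtype_injective (h.congr coe_inGs T)

theorem coe_mem_Hs (T : RootTable D) {k : ↥(Gs D y)} (hk : k ∈ Hs D (inGs D y)) :
    (k : G) ∈ Hs D y := by
  rw [Hs_congr coe_inGs T, ← map_Hs]
  exact mem_map_of_mem _ hk

theorem exists_conj_orth_Gs [Good D] [Finite G] [CharP F 2] (hn : IsND y T) (h : IsSt D y)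
    (hcomm : ∀ a ∈ Hs D y, ∀ b ∈ Hs D y, a * b = b * a) (hodd : ∀ k ∈ Hs D y, Odd (orderOf k))
    {t : G} (ht : t ∈ Gs D y) (h2 : t * t = 1) :
    ∃ R : List ℕ, Orth D R ∧ ∃ g ∈ Gs D y, g * t * g⁻¹ = oprod y R 1 := by
  obtain ⟨R, hR, hc⟩ := (isND_inGs hn).exists_conj_orth (isSt_inGs T h) Gs_inGs
    (fun a ha b hb => Subtype.ext (hcomm _ (coe_mem_Hs T ha) _ (coe_mem_Hs T hb)))
    (fun a ha e => by
      have e' : (a : G) ^ 2 = 1 := by rw [_root_.sq]; exact congrArg Subtype.val e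
      have h1 := orderOf_dvd_of_pow_eq_one e'
      have h3 := hodd _ (coe_mem_Hs T ha)
      rcases (Nat.dvd_prime Nat.prime_two).1 h1 with h4 | h4
      · exact Subtype.ext (orderOf_eq_one_iff.1 h4)
      · rw [h4] at h3; exact absurd h3 (by decide))
    (t := ⟨t, ht⟩) (Subtype.ext h2)
  obtain ⟨g, hg⟩ := isConj_iff.1 hc
  refine ⟨R, hR, g, g.2, ?_⟩
  have e := congrArg (Gs D y).subtype hg
  rw [map_oprod] at e
  refine e.trans ?_
  unfold oprod
  congr 1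
  exact List.map_congr_left fun r hr => (coe_inGs r (hR.1 r hr) _).symm

end InGs

variable [CharP F 2] {x : ℕ → F → G} {d : G} {π : ℕ → ℕ} {c : ℕ → F} {σ : F ≃+* F}

theorem SL.commute_oprod (H : SL T) (h0 : IsSt0 D x) {r : ℕ} (hr : r < 2 * T.N) {R : List ℕ}
    (hR : ∀ e ∈ R, e < 2 * T.N ∧ D.pairing e r = 0) (a : F) (t : ℕ → F) :
    Commute (x r a) (oprod x R t) := by
  induction R with
  | nil => simp
  | cons e R ih =>
    rw [oprod_cons]
    have he := hR e List.mem_cons_self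
    exact (H.com h0 he.1 hr he.2.ge _ _).symm.mul_right
      (ih fun e' he' => hR e' (List.mem_cons_of_mem _ he'))

theorem Sym.hi_fix (h : Sym T π) (H : SL T) (E : EF T)
    (ho : ∀ r < 2 * T.N, π r ≠ r → D.pairing r (π r) = 0) : π (hi T) = hi T := by
  by_contra hne
  have h1 := hi_lt T
  have h2 := h.lt _ h1
  obtain ⟨a, ha, e1, e2⟩ := E.g2 _ h1 _ h2 (ho _ h1 hne)
  obtain ⟨e, he⟩ := H.exists_sub ha h1 e1
  have p1 := H.sm_ks he
  have pe : T.N ≤ e := by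
    by_contra hn
    have := H.hi_nonneg (T.N_le_neg (not_le.1 hn)) (T.neg_lt he.hs)
    rw [T.pairing_neg_right _ he.hs] at this
    omega
  have p2 := he.pair (π (hi T))
  have p3 := H.hi_nonneg ((h.pos e he.hs).2 pe) (h.lt e he.hs)
  rw [← h.pair _ h1 _ (h.lt e he.hs), h.inv e he.hs] at p3
  rw [H.symm _ h2 _ h1, ho _ h1 hne, H.symm _ h2 _ ha] at p2
  omega

namespace Iv

section Graph

variable (h : Iv T x d π c (RingEquiv.refl F))
include h

theorem c_fix {r : ℕ} (hr : r < 2 * T.N) (e : π r = r) : c r = 1 := by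
  have h1 := h.cc hr
  rw [e, RingEquiv.refl_apply, mul_self_eq_one_iff, CharTwo.neg_eq, or_self] at h1
  exact h1

theorem conj' {r : ℕ} (hr : r < 2 * T.N) (a : F) : d * x r a * d⁻¹ = x (π r) (c r * a) :=
  h.nf.conj r hr a

theorem conj_fix {r : ℕ} (hr : r < 2 * T.N) (e : π r = r) (a : F) : d * x r a * d⁻¹ = x r a := by
  rw [h.conj' hr, e, h.c_fix hr e, one_mul]

theorem conj_fix_XS {S : Set ℕ} (hS : ∀ r ∈ S, r < 2 * T.N ∧ π r = r) {u : G} (hu : u ∈ XS x S) :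
    d * u * d⁻¹ = u := by
  have : XS x S ≤ centralizer {d} := XS_le.2 fun r hr a => by
    rw [mem_centralizer_singleton_iff]
    exact (mul_inv_eq_iff_eq_mul.1 (h.conj_fix (hS r hr).1 (hS r hr).2 a)).symm
  rw [← mem_centralizer_singleton_iff.1 (this hu)]
  group

theorem card_prm_graph {r : ℕ} (hr : r < 2 * T.N) (e : π r = r) :
    prm π c (RingEquiv.refl F) r = Set.univ :=
  Set.eq_univ_of_forall fun a _ => by rw [h.c_fix hr e, one_mul]; rfl

/-- Step (1): an involution of `U d` is conjugate to `u₀ d`, `u₀` in the fixed root groups. -/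
theorem conj_fixed {u : G} (hu : u ∈ Us D x) (hs : u * d * (u * d) = 1) :
    ∃ v ∈ Us D x, ∃ u' ∈ XS x {r | r ∈ Pos T ∧ π r = r}, v * (u * d) * v⁻¹ = u' * d ∧
      u' * u' = 1 := by
  have h4 : ∀ u ∈ XS x {r | r ∈ Pos T ∧ π r = r}, d * u * d⁻¹ = u := fun u hu =>
    h.conj_fix_XS (fun r hr => ⟨hr.1.2, hr.2⟩) hu
  obtain ⟨v, hv, u', hu', e⟩ := h.conj_gen (S₀ := {r | r ∈ Pos T ∧ π r = r}) (fun r hr => hr.1)
    (fun r s k m hr hs => ⟨⟨m.pos hr.1.1 hs.1.1, m.hk⟩, by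
      have := h.sym.sum r s k m
      rw [hr.2, hs.2] at this
      exact this.uniq m⟩) (fun r hr => hr.2) h4 (fun r hr e => Or.inl ⟨hr, e⟩) h.sym.idl_Pos
    1 (one_mem _) u (by rwa [← Us_eq_Pos]) (by rwa [one_mul])
  rw [one_mul] at e
  refine ⟨v, hv, u', hu', e, ?_⟩
  have e1 : u' * d * (u' * d) = 1 := by
    rw [← e]
    calc _ = v * (u * d * (u * d)) * v⁻¹ := by group
      _ = 1 := by rw [hs]; group
  calc u' * u' = u' * (d * u' * d⁻¹) * (d * d) := by rw [h4 u' hu', h.dd, mul_one]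
    _ = 1 := by rw [← e1]; group

/-- Step (3): removing one root. -/
theorem drop [Finite F] {a b r k : ℕ} (ha : π a = a) (hb : π b = b) (hr : π r ≠ r)
    (m1 : Sm T a r k) (m2 : Sm T k (π r) b) {R : List ℕ}
    (hR : ∀ e ∈ R, e < 2 * T.N ∧ π e = e ∧ D.pairing e a = 0 ∧ D.pairing e b = 0) :
    ∃ l ∈ Gs D x, l * (x a 1 * x b 1 * oprod x R 1 * d) * l⁻¹ = x a 1 * oprod x R 1 * d := by
  have H := h.sl
  have m3 : Sm T a (π r) (π k) := by have := h.sym.sum _ _ _ m1; rwa [ha] at this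
  have m4 : Sm T (π k) r b := by
    have := h.sym.sum _ _ _ m2; rwa [hb, h.sym.inv r m1.hs] at this
  have hk : π k ≠ k := fun e => hr (by rw [e] at m3; exact m3.uniq' m1)
  obtain ⟨m, hm⟩ : ∃ m : F, m * m = (c r)⁻¹ := by
    obtain ⟨m, hm⟩ := FiniteField.isSquare_of_char_two (ringChar.eq F 2) (c r)⁻¹
    exact ⟨m, hm.symm⟩
  have hn : c r * m * m = 1 := by rw [mul_assoc, hm, mul_inv_cancel₀ (h.nf.ne r m1.hs)]
  set n := c r * m with hn'
  set w := oprod x R 1 with hw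
  have o1 : ∀ e ∈ R, D.pairing e r = 0 ∧ D.pairing e (π r) = 0 ∧ D.pairing e k = 0 ∧
      D.pairing e (π k) = 0 := by
    intro e he
    obtain ⟨e1, e2, e3, e4⟩ := hR e he
    have q1 := m1.pair e
    have q2 := m2.pair e
    have q3 := m3.pair e
    have q4 := h.sym.pair e e1 r m1.hs
    rw [e2] at q4
    omega
  have c1 : Commute (x r m) w :=
    H.commute_oprod h.st0 m1.hs (fun e he => ⟨(hR e he).1, (o1 e he).1⟩) _ _
  have c2 : Commute (x (π r) n) w :=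
    H.commute_oprod h.st0 m2.hs (fun e he => ⟨(hR e he).1, (o1 e he).2.1⟩) _ _
  have c3 : Commute (x k m) w :=
    H.commute_oprod h.st0 m1.hk (fun e he => ⟨(hR e he).1, (o1 e he).2.2.1⟩) _ _
  have c4 : Commute (x (π k) n) w :=
    H.commute_oprod h.st0 m3.hk (fun e he => ⟨(hR e he).1, (o1 e he).2.2.2⟩) _ _
  have c5 : Commute (x r m) (x b 1) := H.com h.st0 m1.hs m2.hk (by rw [H.sm_sk m4]; norm_num) _ _
  have c6 : Commute (x (π r) n) (x b 1) :=
    H.com h.st0 m2.hs m2.hk (by rw [H.sm_sk m2]; norm_num) _ _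
  have c7 : Commute (x a 1) (x k m) := H.com h.st0 m1.hr m1.hk (by rw [H.sm_rk m1]; norm_num) _ _
  have hz : d * (x r m * x (π r) n) * d⁻¹ = x r m * x (π r) n := by
    have := h.zz_comm m1.hs (a := m) (fun e => absurd e hr)
    rwa [zz, if_neg hr] at this
  have s1 := H.conj h.st0 m3 1 n
  have s2 := H.conj h.st0 m1 1 m
  have s3 := H.conj h.st0 m4 n m
  rw [one_mul] at s1 s2
  rw [hn] at s3
  have t1 : x r m * x (π r) n * x a 1 * (x r m * x (π r) n)⁻¹ =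
      x a 1 * x k m * (x (π k) n * x b 1) := by
    rw [mul_inv_rev, h.x_inv m1.hs, h.x_inv m2.hs, ← s2, ← s3]
    calc _ = x r m * (x (π r) n * x a 1 * x (π r) n) * x r m := by group
      _ = x r m * x a 1 * (x r m * x r m) * x (π k) n * x r m := by
          rw [s1, h.sq m1.hs]; group
      _ = _ := by group
  have t2 : x r m * x (π r) n * (x a 1 * x b 1 * w * d) * (x r m * x (π r) n)⁻¹ =
      x a 1 * x k m * x (π k) n * w * d := by
    have cz : Commute (x r m * x (π r) n) (x b 1 * w * d) :=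
      ((c5.mul_left c6).mul_right (c1.mul_left c2)).mul_right
        (show Commute d _ from mul_inv_eq_iff_eq_mul.1 hz).symm
    calc _ = x r m * x (π r) n * x a 1 * (x r m * x (π r) n)⁻¹ *
          (x r m * x (π r) n * (x b 1 * w * d) * (x r m * x (π r) n)⁻¹) := by group
      _ = x a 1 * x k m * x (π k) n * (x b 1 * x b 1) * w * d := by
          rw [t1, cz.eq]; group
      _ = _ := by rw [h.sq m2.hk, mul_one]
  have ck : c k = c r := by rw [h.nf.mul _ _ _ m1, h.c_fix m1.hr ha, one_mul]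
  have t3 : d * x k m * d⁻¹ = x (π k) n := by rw [h.conj' m1.hk, ck]
  refine ⟨x k m * (x r m * x (π r) n), mul_mem (mem_Gs (T.lt_iff.2 m1.hk) _)
    (mul_mem (mem_Gs (T.lt_iff.2 m1.hs) _) (mem_Gs (T.lt_iff.2 m2.hs) _)), ?_⟩
  calc _ = x k m * (x r m * x (π r) n * (x a 1 * x b 1 * w * d) * (x r m * x (π r) n)⁻¹) *
        (x k m)⁻¹ := by group
    _ = (x k m * x a 1) * x k m * (x (π k) n * w) * (d * x k m * d⁻¹)⁻¹ * d := by rw [t2]; group
    _ = x a 1 * (x k m * x k m) * w * d := by rw [← c7.eq, c4.eq, t3]; group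
    _ = _ := by rw [h.sq m1.hk, mul_one]

theorem reduce [Finite F]
    (hg : ∀ a < 2 * T.N, ∀ b < 2 * T.N, π a = a → π b = b → D.pairing a b = 0 →
      ∃ r k, π r ≠ r ∧ Sm T a r k ∧ Sm T k (π r) b) {a : ℕ} (ha : a < 2 * T.N) (ha' : π a = a)
    (R : List ℕ) (hR : ∀ e ∈ R, e < 2 * T.N ∧ π e = e ∧ D.pairing e a = 0)
    (hP : R.Pairwise fun r s => D.pairing s r = 0) :
    ∃ l ∈ Gs D x, l * (x a 1 * oprod x R 1 * d) * l⁻¹ = x a 1 * d := by
  induction R with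
  | nil => exact ⟨1, one_mem _, by simp⟩
  | cons b R ih =>
    obtain ⟨hb1, hb2, hb3⟩ := hR b List.mem_cons_self
    obtain ⟨hP1, hP2⟩ := List.pairwise_cons.1 hP
    have hR' := fun e he => hR e (List.mem_cons_of_mem b he)
    obtain ⟨r, k, hr, m1, m2⟩ := hg a ha b hb1 ha' hb2 (by rw [h.sl.symm a ha b hb1, hb3])
    obtain ⟨l, hl, e⟩ := h.drop ha' hb2 hr m1 m2 (R := R)
      fun e he => ⟨(hR' e he).1, (hR' e he).2.1, (hR' e he).2.2, hP1 e he⟩
    obtain ⟨l', hl', e'⟩ := ih hR' hP2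
    refine ⟨l' * l, mul_mem hl' hl, ?_⟩
    rw [← e', ← e, oprod_cons, Pi.one_apply]
    group

end Graph

section Twisted

variable (h : Iv T x d π c σ)
include h

theorem perfect_pair (hσ : ∃ e, σ e ≠ e) {r : ℕ} (hr : r < 2 * T.N) :
    ⁅XS x {r, D.neg r}, XS x {r, D.neg r}⁆ = XS x {r, D.neg r} := by
  refine le_antisymm ?_ ?_
  · exact commutator_le.2 fun a ha b hb =>
      mul_mem (mul_mem (mul_mem ha hb) (inv_mem ha)) (inv_mem hb)
  obtain ⟨e, he⟩ := hσ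
  have e0 : e ≠ 0 := fun m => he (by rw [m, map_zero])
  have e1 : e ^ 2 + 1 ≠ 0 := fun m => he (by
    rw [add_eq_zero_iff_eq_neg, CharTwo.neg_eq, _root_.sq, mul_self_eq_one_iff, CharTwo.neg_eq,
      or_self] at m
    rw [m, map_one])
  have key : ∀ s < 2 * T.N, s ∈ ({r, D.neg r} : Set ℕ) → D.neg s ∈ ({r, D.neg r} : Set ℕ) → ∀ t,
      x s t ∈ ⁅XS x {r, D.neg r}, XS x {r, D.neg r}⁆ := by
    intro s hs m1 m2 t
    have m := commutator_mem_commutator (hh_mem (D := D) (K := XS x {r, D.neg r}) (mem_XS m1)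
      (mem_XS m2) e) (mem_XS (x := x) m1 (t / (e ^ 2 + 1)))
    rw [commutatorElement_def, h.st.hh_conj T hs hs e0, T.pairing_self s hs, h.x_inv hs,
      h.add hs, zpow_ofNat] at m
    have : e ^ 2 * (t / (e ^ 2 + 1)) + t / (e ^ 2 + 1) = t := by field_simp
    rwa [this] at m
  rw [XS_le]
  rintro s (rfl | rfl) t
  · exact key _ hr (Or.inl rfl) (Or.inr rfl) t
  · exact key _ (T.neg_lt hr) (Or.inr rfl) (Or.inl (T.neg_neg hr)) t

theorem pair_commute {r : ℕ} (hr : r < 2 * T.N) (hπ : π r ≠ r) {g g' : G}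
    (hg : g ∈ XS x {r, D.neg r}) (hg' : g' ∈ XS x {r, D.neg r}) : Commute g (d * g' * d⁻¹) := by
  have p := h.orth r hr hπ
  have hr' := h.sym.lt r hr
  have k1 : ∀ s ∈ ({r, D.neg r} : Set ℕ), ∀ s' ∈ ({r, D.neg r} : Set ℕ), ∀ a b,
      Commute (x s a) (d * x s' b * d⁻¹) := by
    rintro s (rfl | rfl) s' (rfl | rfl) a b
    · rw [h.nf.conj _ hr]; exact h.sl.com h.st0 hr hr' p.ge _ _
    · rw [h.nf.conj _ (T.neg_lt hr), h.sym.neg _ hr]
      exact h.sl.com h.st0 hr (T.neg_lt hr') (by rw [T.pairing_neg_right _ hr', p]; rfl) _ _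
    · rw [h.nf.conj _ hr]
      exact h.sl.com h.st0 (T.neg_lt hr) hr' (by rw [T.pairing_neg_left hr, p]; rfl) _ _
    · rw [h.nf.conj _ (T.neg_lt hr), h.sym.neg _ hr]
      exact h.sl.com h.st0 (T.neg_lt hr) (T.neg_lt hr')
        (by rw [T.pairing_neg_left hr, T.pairing_neg_right _ hr', p]; rfl) _ _
  have k2 : ∀ s ∈ ({r, D.neg r} : Set ℕ), ∀ a, Commute (x s a) (d * g' * d⁻¹) := by
    intro s hs a
    have := conj_mem_of_XS (K := centralizer {x s a}) (a := d) (fun s' hs' b =>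
      mem_centralizer_singleton_iff.2 (k1 s hs s' hs' a b).symm.eq) hg'
    exact (mem_centralizer_singleton_iff.1 this).symm
  have : XS x {r, D.neg r} ≤ centralizer {d * g' * d⁻¹} := XS_le.2 fun s hs a =>
    mem_centralizer_singleton_iff.2 (k2 s hs a).eq
  exact mem_centralizer_singleton_iff.1 (this hg)

/-- `g ↦ g · d g d⁻¹` on `⟨X_r, X_{-r}⟩` -/
def tw {r : ℕ} (hr : r < 2 * T.N) (hπ : π r ≠ r) : ↥(XS x {r, D.neg r}) →* G :=
  MonoidHom.mk' (fun g => g * (d * g * d⁻¹)) fun g g' => by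
    have := (h.pair_commute hr hπ g'.2 g.2).eq
    rw [coe_mul]
    calc _ = (g : G) * (g' * (d * g * d⁻¹)) * (d * g' * d⁻¹) := by group
      _ = _ := by rw [this]; group

theorem tw_mem {r : ℕ} (hr : r < 2 * T.N) (hπ : π r ≠ r) (g : ↥(XS x {r, D.neg r})) :
    h.tw hr hπ g ∈ centralizer {d} := by
  rw [mem_centralizer_singleton_iff]
  have := (h.pair_commute hr hπ g.2 g.2).eq
  change (g : G) * (d * g * d⁻¹) * d = d * (g * (d * g * d⁻¹))
  calc _ = (d * g * d⁻¹) * (d * d) * g * (d * d)⁻¹ * d := by rw [this, h.dd]; group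
    _ = _ := by group

theorem tw_mem_L (hσ : ∃ e, σ e ≠ e) {L' : Subgroup G}
    (hL' : ∀ M : Subgroup G, M ≤ centralizer {d} → ⁅M, M⁆ = M → M ≤ L') {r : ℕ}
    (hr : r < 2 * T.N) (hπ : π r ≠ r) (g : ↥(XS x {r, D.neg r})) : h.tw hr hπ g ∈ L' := by
  refine hL' (h.tw hr hπ).range ?_ ?_ ⟨g, rfl⟩
  · rintro _ ⟨g, rfl⟩
    exact h.tw_mem hr hπ g
  · have : ⁅(⊤ : Subgroup ↥(XS x {r, D.neg r})), (⊤ : Subgroup ↥(XS x {r, D.neg r}))⁆ = ⊤ := by
      apply Subgroup.map_injective (XS x {r, D.neg r}).subtype_injective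
      rw [map_commutator, ← MonoidHom.range_eq_map, range_subtype, h.perfect_pair hσ hr]
    rw [MonoidHom.range_eq_map, ← map_commutator, this]

theorem tw_x {r : ℕ} (hr : r < 2 * T.N) (hπ : π r ≠ r) (a : F) :
    h.tw hr hπ ⟨x r a, mem_XS (Or.inl rfl) a⟩ = zz x π c σ r a := by
  change x r a * (d * x r a * d⁻¹) = _
  rw [zz, if_neg hπ, h.nf.conj r hr]

theorem zz_rel {r s k : ℕ} (hr : π r ≠ r) (hs : π s ≠ s) (hk : π k = k) (m : Sm T r s k) (a : F) :
    zz x π c σ s 1 * zz x π c σ r a = zz x π c σ r a * zz x π c σ s 1 * x k (a + c k * σ a) := by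
  have H := h.sl
  have m' : Sm T (π r) (π s) k := by have := h.sym.sum _ _ _ m; rwa [hk] at this
  have p1 : D.pairing s (π r) = 1 := by
    have q1 := m'.pair s
    have q2 := H.sm_sk m
    have q3 := h.orth s m.hs hs
    omega
  rw [zz, zz, if_neg hr, if_neg hs]
  have s1 := H.sum h.st0 m a 1
  have s2 := H.sum h.st0 m' (c r * σ a) (c s * σ 1)
  have e : c r * σ a * (c s * σ 1) = c k * σ a := by rw [h.nf.mul _ _ _ m, map_one]; ring
  rw [mul_one] at s1
  rw [e] at s2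
  have p2 : D.pairing (π s) r = 1 := by
    rw [← p1, ← h.sym.pair s m.hs _ m'.hr, h.sym.inv r m.hr]
  have c1 : Commute (x (π s) (c s * σ 1)) (x r a) :=
    H.com h.st0 m'.hs m.hr (by rw [p2]; norm_num) _ _
  have c2 : Commute (x s 1) (x (π r) (c r * σ a)) :=
    H.com h.st0 m.hs m'.hr (by rw [p1]; norm_num) _ _
  have c3 : Commute (x k a) (x (π r) (c r * σ a) * x (π s) (c s * σ 1)) :=
    (H.com h.st0 m.hk m'.hr (by rw [H.sm_kr m']; norm_num) _ _).mul_right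
      (H.com h.st0 m.hk m'.hs (by rw [H.sm_ks m']; norm_num) _ _)
  calc _ = x s 1 * (x (π s) (c s * σ 1) * x r a) * x (π r) (c r * σ a) := by group
    _ = (x s 1 * x r a) * (x (π s) (c s * σ 1) * x (π r) (c r * σ a)) := by rw [c1.eq]; group
    _ = x r a * x s 1 * (x k a * (x (π r) (c r * σ a) * x (π s) (c s * σ 1))) *
        x k (c k * σ a) := by rw [s1, s2]; group
    _ = x r a * (x s 1 * x (π r) (c r * σ a)) * x (π s) (c s * σ 1) *
        (x k a * x k (c k * σ a)) := by rw [c3.eq]; group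
    _ = _ := by rw [c2.eq, h.add m.hk]; group

theorem twisted_le (hσ : ∃ e, σ e ≠ e)
    (hg : ∀ k < 2 * T.N, π k = k → ∃ r s, π r ≠ r ∧ π s ≠ s ∧ Sm T r s k) {L' : Subgroup G}
    (hL' : ∀ M : Subgroup G, M ≤ centralizer {d} → ⁅M, M⁆ = M → M ≤ L') :
    Us D x ⊓ centralizer {d} ≤ L' := by
  have k1 : ∀ r < 2 * T.N, π r ≠ r → ∀ a, zz x π c σ r a ∈ L' := fun r hr hπ a => by
    rw [← h.tw_x hr hπ]; exact h.tw_mem_L hσ hL' hr hπ _
  refine h.fix_le fun k hk a ha => ?_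
  by_cases hπ : π k = k
  · obtain ⟨r, s, hr, hs, m⟩ := hg k hk.2 hπ
    obtain ⟨ε, hε⟩ := h.exists_half hσ
    have e := h.zz_rel hr hs hπ m (ε * a)
    rw [map_mul, mul_left_comm, ha hπ, ← add_mul, hε, one_mul] at e
    rw [zz, if_pos hπ, eq_inv_mul_of_mul_eq e.symm]
    exact mul_mem (inv_mem (mul_mem (k1 r m.hr hr _) (k1 s m.hs hs _)))
      (mul_mem (k1 s m.hs hs _) (k1 r m.hr hr _))
  · exact k1 k hk.2 hπ a

theorem conj_hh_mem {r : ℕ} (hr : r < 2 * T.N) {t : F} (ht : t ≠ 0) :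
    d * hh D x r t * d⁻¹ ∈ Hs D x := by
  have hr' := h.sym.lt r hr
  have k : ∀ t : F, d * nn D x r t * d⁻¹ = nn D x (π r) (c r * σ t) := by
    intro t
    unfold nn
    calc _ = d * x r t * d⁻¹ * (d * x (D.neg r) (-t⁻¹) * d⁻¹) * (d * x r t * d⁻¹) := by group
      _ = _ := by
        rw [h.nf.conj r hr, h.nf.conj _ (T.neg_lt hr), h.sym.neg r hr, h.nf.neg r hr, map_neg,
          map_inv₀, mul_inv, mul_neg]
  have e : d * hh D x r t * d⁻¹ = hh D x (π r) (c r * σ t) * (hh D x (π r) (c r))⁻¹ := by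
    calc _ = d * nn D x r t * d⁻¹ * (d * nn D x r (-1) * d⁻¹) := by unfold hh; group
      _ = _ := by
        rw [k, k, map_neg, map_one, mul_neg, mul_one, h.st0.nn_neg T hr', h.st0.nn_eq T hr',
          h.st0.nn_eq T hr' (c r)]
        group
  rw [e]
  exact mul_mem (hh_mem_Hs (T.lt_iff.2 hr') (mul_ne_zero (h.nf.ne r hr) ((map_ne_zero σ).2 ht)))
    (inv_mem (hh_mem_Hs (T.lt_iff.2 hr') (h.nf.ne r hr)))

theorem twisted_torus [Finite F] (hσ : ∃ e, σ e ≠ e) (hπ : ∃ r < 2 * T.N, π r ≠ r)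
    {L' : Subgroup G} (hL' : ∀ M : Subgroup G, M ≤ centralizer {d} → ⁅M, M⁆ = M → M ≤ L') {q : ℕ}
    (hq : Nat.card F = q ^ 2) :
    ∃ k ∈ L' ⊓ Hs D x ⊓ centralizer {d},
      ∃ u ∈ Us D x ⊓ centralizer {d}, ¬ Commute (k ^ (q - 1)) u := by
  obtain ⟨r, hr0, hπ⟩ : ∃ r ∈ Pos T, π r ≠ r := by
    obtain ⟨r, hr, e⟩ := hπ
    by_cases h1 : T.N ≤ r
    · exact ⟨r, ⟨h1, hr⟩, e⟩
    · refine ⟨D.neg r, ⟨T.N_le_neg (not_le.1 h1), T.neg_lt hr⟩, fun m => e ?_⟩
      rw [h.sym.neg r hr] at m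
      rw [← T.neg_neg (h.sym.lt r hr), m, T.neg_neg hr]
  have hr := hr0.2
  obtain ⟨g, hg⟩ := IsCyclic.exists_ofOrder_eq_natCard (α := Fˣ)
  have g0 : (g : F) ≠ 0 := g.ne_zero
  let H : ↥(XS x {r, D.neg r}) :=
    ⟨hh D x r g, hh_mem (mem_XS (Or.inl rfl)) (mem_XS (Or.inr rfl)) _⟩
  let X : F → ↥(XS x {r, D.neg r}) := fun a => ⟨x r a, mem_XS (Or.inl rfl) a⟩
  have act : ∀ (n : ℕ) a, H ^ n * X a * (H ^ n)⁻¹ = X (((g : F) ^ 2) ^ n * a) := by
    intro n
    induction n with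
    | zero => intro a; simp
    | succ n ih =>
      intro a
      have e1 : H * X a * H⁻¹ = X ((g : F) ^ 2 * a) := Subtype.ext (by
        have := h.st.hh_conj T hr hr g0 a
        rwa [T.pairing_self r hr, zpow_ofNat] at this)
      calc _ = H ^ n * (H * X a * H⁻¹) * (H ^ n)⁻¹ := by group
        _ = _ := by rw [e1, ih, pow_succ ((g : F) ^ 2), mul_assoc (((g : F) ^ 2) ^ n)]
  refine ⟨h.tw hr hπ H, ⟨⟨h.tw_mem_L hσ hL' hr hπ H,
    mul_mem (hh_mem_Hs (T.lt_iff.2 hr) g0) (h.conj_hh_mem hr g0)⟩, h.tw_mem hr hπ H⟩,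
    h.tw hr hπ (X 1), ⟨?_, h.tw_mem hr hπ _⟩, fun hc => ?_⟩
  · rw [h.tw_x hr hπ, Us_eq_Pos T]
    exact zz_mem h.sym.idl_Pos hr0 1
  · have e1 : h.tw hr hπ (X (((g : F) ^ 2) ^ (q - 1) * 1)) = h.tw hr hπ (X 1) := by
      rw [← act, map_mul, map_mul, map_inv, map_pow, hc.eq, mul_inv_cancel_right]
    rw [h.tw_x hr hπ, h.tw_x hr hπ, zz, zz, if_neg hπ, if_neg hπ, mul_one] at e1
    have hr' := h.sym.lt r hr
    have e2 : x r (1 + ((g : F) ^ 2) ^ (q - 1)) =
        x (π r) (c r * σ 1 + c r * σ (((g : F) ^ 2) ^ (q - 1))) := by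
      rw [← h.add hr, ← h.add hr', ← h.x_inv hr 1, ← h.x_inv hr' (c r * σ (((g : F) ^ 2) ^ (q - 1))),
        inv_mul_eq_iff_eq_mul, ← mul_assoc, ← e1, mul_inv_cancel_right]
    have hn : π r ≠ D.neg r := by
      have := T.neg_lt_N hr0.1 hr
      have := (h.sym.pos r hr).2 hr0.1
      omega
    have e3 := (indep h.sl h.nd hr hr' hπ hn e2).1
    rw [add_eq_zero_iff_eq_neg, CharTwo.neg_eq, ← pow_mul] at e3
    have e4 : g ^ (2 * (q - 1)) = 1 := Units.ext (by rw [Units.val_pow_eq_pow_val, ← e3]; rfl)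
    have e5 := orderOf_dvd_of_pow_eq_one e4
    rw [hg, Nat.card_units, hq] at e5
    have e6 : 1 < Nat.card F := Finite.one_lt_card
    rw [hq] at e6
    have q2 : 2 ≤ q := by
      by_contra hn
      have : q = 0 ∨ q = 1 := by omega
      rcases this with rfl | rfl <;> simp at e6
    obtain ⟨p, rfl⟩ : ∃ p, q = p + 2 := ⟨q - 2, by omega⟩
    have e7 := Nat.le_of_dvd (by omega) e5
    have e8 : (p + 2) ^ 2 = p * p + 4 * p + 4 := by ring
    omega

end Twisted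

end Iv

end Cfsg.Agent.SLE
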